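import Mathlib
import Cfsg.Agent.Lib.Elusive.SL

/-!
Divisibility properties of the numbers of subspaces, complementary pairs and flags.
-/

set_option autoImplicit false

namespace CfsgLib.Elusive

open Polynomial Module CfsgLib.MatConj CfsgLib.Forms

variable {F : Type*} [Field F] {V : Type*} [AddCommGroup V] [Module F V]

theorem exists_equiv_of_isCompl {V' : Type*} [AddCommGroup V'] [Module F V']
    {U U' : Submodule F V} {W W' : Submodule F V'} (hU : IsCompl U U')
    (hW : IsCompl W W') (e : U ≃ₗ[F] W) (e' : U' ≃ₗ[F] W') :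
    ∃ g : V ≃ₗ[F] V', (∀ u : U, g u = e u) ∧ ∀ u : U', g u = e' u := by
  refine ⟨(U.prodEquivOfIsCompl U' hU).symm.trans ((e.prodCongr e').trans
    (W.prodEquivOfIsCompl W' hW)), fun u => ?_, fun u => ?_⟩
  · simp only [LinearEquiv.trans_apply, Submodule.prodEquivOfIsCompl_symm_apply_left]
    simp
  · simp only [LinearEquiv.trans_apply, Submodule.prodEquivOfIsCompl_symm_apply_right]
    simp

theorem map_eq_of_equiv {V' : Type*} [AddCommGroup V'] [Module F V'] {U : Submodule F V}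
    {W : Submodule F V'} (e : U ≃ₗ[F] W) {g : V →ₗ[F] V'} (h : ∀ u : U, g u = e u) :
    U.map g = W := by
  apply le_antisymm
  · rintro _ ⟨u, hu, rfl⟩
    rw [h ⟨u, hu⟩]; exact Subtype.prop _
  · intro w hw
    exact ⟨e.symm ⟨w, hw⟩, Subtype.prop _, by rw [h, e.apply_symm_apply]⟩

theorem isCompl_map_equiv {V' : Type*} [AddCommGroup V'] [Module F V'] {U W : Submodule F V}
    (h : IsCompl U W) (g : V ≃ₗ[F] V') : IsCompl (U.map g.toLinearMap) (W.map g.toLinearMap) :=
  (Submodule.orderIsoMapComap g).isCompl h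

variable [FiniteDimensional F V]

theorem exists_finrank_eq {m : ℕ} (h : m ≤ finrank F V) : ∃ U : Submodule F V, finrank F U = m := by
  obtain ⟨f, hf⟩ := exists_linearIndependent_of_le_finrank h
  exact ⟨Submodule.span F (Set.range f), by rw [finrank_span_eq_card hf, Fintype.card_fin]⟩

theorem exists_le_finrank_eq {W : Submodule F V} {m : ℕ} (h : m ≤ finrank F W) :
    ∃ U : Submodule F V, U ≤ W ∧ finrank F U = m := by
  obtain ⟨U, hU⟩ := exists_finrank_eq h
  exact ⟨U.map W.subtype, W.map_subtype_le U, by rw [Submodule.finrank_map_subtype_eq, hU]⟩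

theorem exists_equiv_pair {U U' W W' : Submodule F V} (hU : IsCompl U U') (hW : IsCompl W W')
    (h : finrank F U = finrank F W) :
    ∃ g : V ≃ₗ[F] V, U.map g.toLinearMap = W ∧ U'.map g.toLinearMap = W' := by
  have h' : finrank F U' = finrank F W' := by
    have h1 := Submodule.finrank_add_eq_of_isCompl hU
    have h2 := Submodule.finrank_add_eq_of_isCompl hW
    omega
  obtain ⟨g, h1, h2⟩ := exists_equiv_of_isCompl hU hW (LinearEquiv.ofFinrankEq U W h)
    (LinearEquiv.ofFinrankEq U' W' h')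
  exact ⟨g, map_eq_of_equiv _ h1, map_eq_of_equiv _ h2⟩

theorem exists_compl_in {U W : Submodule F V} (h : U ≤ W) :
    ∃ B, Disjoint U B ∧ U ⊔ B = W := by
  obtain ⟨C, hC⟩ := U.exists_isCompl
  exact ⟨C ⊓ W, hC.disjoint.mono_right inf_le_left,
    by rw [← sup_inf_assoc_of_le _ h, hC.sup_eq_top, top_inf_eq]⟩

theorem finrank_sup_of_disjoint {U W : Submodule F V} (h : Disjoint U W) :
    finrank F (U ⊔ W : Submodule F V) = finrank F U + finrank F W := by
  have := Submodule.finrank_sup_add_finrank_inf_eq U W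
  rwa [disjoint_iff.1 h, finrank_bot, add_zero] at this

theorem exists_equiv_flag {U W U' W' : Submodule F V} (h : U ≤ W) (h' : U' ≤ W')
    (h1 : finrank F U = finrank F U') (h2 : finrank F W = finrank F W') :
    ∃ g : V ≃ₗ[F] V, U.map g.toLinearMap = U' ∧ W.map g.toLinearMap = W' := by
  obtain ⟨g, hg⟩ := exists_equiv_map_eq h2
  obtain ⟨C, hC⟩ := W'.exists_isCompl
  have hle : U.map g.toLinearMap ≤ W' := hg ▸ Submodule.map_mono h
  obtain ⟨k, hk⟩ := exists_equiv_map_eq (V := W') (U := (U.map g.toLinearMap).comap W'.subtype)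
    (W := U'.comap W'.subtype) (by
      rw [(Submodule.comapSubtypeEquivOfLe hle).finrank_eq,
        (Submodule.comapSubtypeEquivOfLe h').finrank_eq, LinearEquiv.finrank_map_eq, h1])
  refine ⟨g.trans (sumEquiv hC (k, 1)), ?_, ?_⟩
  · apply Submodule.eq_of_le_of_finrank_eq
    · rintro _ ⟨u, hu, rfl⟩
      have h3 : g u ∈ W' := hle ⟨u, hu, rfl⟩
      have h4 := sumEquiv_left hC (k, 1) ⟨g u, h3⟩
      rw [LinearEquiv.coe_coe, LinearEquiv.trans_apply, h4]
      have : k ⟨g u, h3⟩ ∈ U'.comap W'.subtype := hk ▸ ⟨⟨g u, h3⟩, ⟨u, hu, rfl⟩, rfl⟩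
      exact this
    · rw [LinearEquiv.finrank_map_eq, h1]
  · rw [LinearEquiv.coe_trans, Submodule.map_comp, hg, map_sumEquiv_left]

variable [Fintype F] {p r : ℕ} [hp : Fact p.Prime] [CharP F p] [hr : Fact r.Prime]

omit [FiniteDimensional F V] in
theorem exists_ord_dvd_of_dvd_prod {a k : ℕ}
    (h : r ∣ ∏ i ∈ Finset.range k, (Fintype.card F ^ (a + i + 1) - 1)) :
    ∃ j, a < j ∧ j ≤ a + k ∧ orderOf (Fintype.card F : ZMod r) ∣ j := by
  obtain ⟨i, hi, h⟩ := (Prime.dvd_finsetProd_iff hr.out.prime _).1 h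
  rw [Finset.mem_range] at hi
  exact ⟨a + i + 1, by omega, by omega, (dvd_pow_sub_one_iff Fintype.card_pos _).1 h⟩

theorem exists_ord_dvd_of_dvd_card (hrp : r ≠ p) {α : Type*} (act : (V ≃ₗ[F] V) → α → α)
    (h1 : ∀ a, act 1 a = a) (hmul : ∀ g h a, act (g * h) a = act g (act h a)) (Φ : α → Prop)
    (hΦ : ∀ g a, Φ a → Φ (act g a)) (a₀ : α) (h₀ : Φ a₀) (htr : ∀ a, Φ a → ∃ g, act g a₀ = a)
    {A B : Submodule F V} (h : IsCompl A B)
    (hfix : ∀ g : V ≃ₗ[F] V, (∀ a ∈ A, g a = a) → B.map g.toLinearMap = B → act g a₀ = a₀)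
    (hd : r ∣ Nat.card {a // Φ a}) :
    ∃ j, finrank F B < j ∧ j ≤ finrank F V ∧ orderOf (Fintype.card F : ZMod r) ∣ j := by
  have := finite_linearEquiv (F := F) (V := V)
  have H := card_mul_dvd act h1 hmul Φ hΦ a₀ h₀ htr ((sumEquiv h).comp (MonoidHom.inr _ _))
    ((sumEquiv_injective h).comp fun _ _ h => congrArg Prod.snd h)
    fun k => hfix _ (fun a ha => sumEquiv_left h (1, k) ⟨a, ha⟩) (map_sumEquiv_right h (1, k))
  have h2 := Submodule.finrank_add_eq_of_isCompl h
  rw [card_linearEquiv, card_linearEquiv, ← h2, add_comm, glo_add] at H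
  rw [← h2, add_comm]
  exact exists_ord_dvd_of_dvd_prod (prime_dvd_of_mul_dvd hr.out (not_dvd_card hrp)
    (glo_ne_zero Fintype.one_lt_card _) H hd)

omit [FiniteDimensional F V] [Fintype F] in
theorem map_one_equiv (U : Submodule F V) : U.map (1 : V ≃ₗ[F] V).toLinearMap = U := by
  simp [LinearEquiv.one_eq_refl]

omit [FiniteDimensional F V] [Fintype F] in
theorem map_mul_equiv (g h : V ≃ₗ[F] V) (U : Submodule F V) :
    U.map (g * h).toLinearMap = (U.map h.toLinearMap).map g.toLinearMap := by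
  rw [← Submodule.map_comp]; rfl

theorem ord_dvd_of_dvd_card_subspaces (hrp : r ≠ p) {m : ℕ} (hm : m ≤ finrank F V)
    (hd : r ∣ Nat.card {U : Submodule F V // finrank F U = m}) :
    ∃ j, finrank F V - m < j ∧ j ≤ finrank F V ∧ orderOf (Fintype.card F : ZMod r) ∣ j := by
  obtain ⟨A, hA⟩ := exists_finrank_eq hm
  obtain ⟨B, hB⟩ := A.exists_isCompl
  have := exists_ord_dvd_of_dvd_card hrp (fun g (U : Submodule F V) => U.map g.toLinearMap)
    map_one_equiv map_mul_equiv _ (fun g U h => by rw [LinearEquiv.finrank_map_eq, h]) A hA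
    (fun U hU => exists_equiv_map_eq (hA.trans hU.symm)) hB
    (fun g h1 _ => map_eq_of_forall_eq h1) hd
  have h2 := Submodule.finrank_add_eq_of_isCompl hB
  rwa [show finrank F B = finrank F V - m by omega] at this

theorem ord_dvd_of_dvd_card_pairs (hrp : r ≠ p) {m : ℕ} (hm : m ≤ finrank F V)
    (hd : r ∣ Nat.card {P : Submodule F V × Submodule F V //
      IsCompl P.1 P.2 ∧ finrank F P.1 = m}) :
    ∃ j, finrank F V - m < j ∧ j ≤ finrank F V ∧ orderOf (Fintype.card F : ZMod r) ∣ j := by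
  obtain ⟨A, hA⟩ := exists_finrank_eq hm
  obtain ⟨B, hB⟩ := A.exists_isCompl
  have := exists_ord_dvd_of_dvd_card hrp (fun g (P : Submodule F V × Submodule F V) =>
      (P.1.map g.toLinearMap, P.2.map g.toLinearMap))
    (fun P => Prod.ext (map_one_equiv _) (map_one_equiv _))
    (fun g h P => Prod.ext (map_mul_equiv _ _ _) (map_mul_equiv _ _ _)) _
    (fun g P h => ⟨isCompl_map_equiv h.1 g, by rw [LinearEquiv.finrank_map_eq, h.2]⟩) (A, B)
    ⟨hB, hA⟩ (fun P hP => by
      obtain ⟨g, h1, h2⟩ := exists_equiv_pair hB hP.1 (hA.trans hP.2.symm)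
      exact ⟨g, Prod.ext h1 h2⟩) hB
    (fun g h1 h2 => Prod.ext (map_eq_of_forall_eq h1) h2) hd
  have h2 := Submodule.finrank_add_eq_of_isCompl hB
  rwa [show finrank F B = finrank F V - m by omega] at this

theorem ord_dvd_of_dvd_card_flags (hrp : r ≠ p) {m l : ℕ} (hm : m ≤ l) (hl : l ≤ finrank F V)
    (hd : r ∣ Nat.card {P : Submodule F V × Submodule F V //
      P.1 ≤ P.2 ∧ finrank F P.1 = m ∧ finrank F P.2 = l}) :
    ∃ j, l - m < j ∧ j ≤ finrank F V ∧ orderOf (Fintype.card F : ZMod r) ∣ j := by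
  obtain ⟨W, hW⟩ := exists_finrank_eq hl
  obtain ⟨U, hUW, hU⟩ := exists_le_finrank_eq (W := W) (m := m) (by omega)
  obtain ⟨B, hB1, hB2⟩ := exists_compl_in hUW
  obtain ⟨C, hC⟩ := W.exists_isCompl
  have hc : IsCompl (U ⊔ C) B := by
    refine ⟨?_, ?_⟩
    · rw [disjoint_comm]
      exact hB1.symm.disjoint_sup_right_of_disjoint_sup_left
        (by rw [sup_comm, hB2]; exact hC.disjoint)
    · rw [codisjoint_iff, sup_right_comm, hB2, hC.sup_eq_top]
  have := exists_ord_dvd_of_dvd_card hrp (fun g (P : Submodule F V × Submodule F V) =>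
      (P.1.map g.toLinearMap, P.2.map g.toLinearMap))
    (fun P => Prod.ext (map_one_equiv _) (map_one_equiv _))
    (fun g h P => Prod.ext (map_mul_equiv _ _ _) (map_mul_equiv _ _ _)) _
    (fun g P h => ⟨Submodule.map_mono h.1, by rw [LinearEquiv.finrank_map_eq, h.2.1],
      by rw [LinearEquiv.finrank_map_eq, h.2.2]⟩) (U, W)
    ⟨hUW, hU, hW⟩ (fun P hP => by
      obtain ⟨g, h1, h2⟩ := exists_equiv_flag hUW hP.1 (hU.trans hP.2.1.symm)
        (hW.trans hP.2.2.symm)
      exact ⟨g, Prod.ext h1 h2⟩) hc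
    (fun g h1 h2 => by
      have h3 : U.map g.toLinearMap = U :=
        map_eq_of_forall_eq fun a ha => h1 a (Submodule.mem_sup_left ha)
      refine Prod.ext h3 ?_
      dsimp only
      rw [← hB2, Submodule.map_sup, h3, h2]) hd
  have h2 := finrank_sup_of_disjoint hB1
  rw [hB2] at h2
  rwa [show finrank F B = l - m by omega] at this

theorem char_dvd_card_submodule {W : Submodule F V} (h : finrank F W ≠ 0) : p ∣ Nat.card W := by
  rw [Module.natCard_eq_pow_finrank (K := F), Nat.card_eq_fintype_card]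
  exact dvd_pow char_dvd_card h

theorem zero_hp {m : ℕ} (hm : m ≤ finrank F V) (U W : Submodule F V) (_ : (zeroPQ F V).TS U)
    (h1 : finrank F U < m) (h2 : Disjoint U W) (h3 : U ⊔ W = (zeroPQ F V).perp U) :
    p ∣ Nat.card {w : W // (zeroPQ F V).Sing w} := by
  rw [Nat.card_congr (Equiv.subtypeUnivEquiv (p := fun w : W => (zeroPQ F V).Sing w)
    fun _ => trivial)]
  apply char_dvd_card_submodule
  have := finrank_sup_of_disjoint h2
  rw [h3, zero_perp, finrank_top] at this
  omega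

theorem not_char_dvd_card_subspaces {m : ℕ} (hm : m ≤ finrank F V) :
    ¬ p ∣ Nat.card {U : Submodule F V // finrank F U = m} := by
  have := not_dvd_card_ts (zeroPQ F V) (p := p) m (zero_hp hm) fun U W _ _ h => by
    obtain ⟨g, hg⟩ := exists_equiv_map_eq h
    exact ⟨g, zero_isIso _, hg⟩
  simpa only [zero_ts, and_true] using this

theorem not_char_dvd_card_flags {m l : ℕ} (hm : m ≤ l) (hl : l ≤ finrank F V) :
    ¬ p ∣ Nat.card {P : Submodule F V × Submodule F V //
      P.1 ≤ P.2 ∧ finrank F P.1 = m ∧ finrank F P.2 = l} := by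
  have := finite_linearEquiv (F := F) (V := V)
  refine not_dvd_card_of_fixed (fun (g : (zeroPQ F V).isom) (P : Submodule F V × Submodule F V) =>
      (P.1.map g.1.toLinearMap, P.2.map g.1.toLinearMap))
    (fun P => Prod.ext (map_one_equiv _) (map_one_equiv _))
    (fun g h P => Prod.ext (map_mul_equiv _ _ _) (map_mul_equiv _ _ _)) _
    (fun g P h => ⟨Submodule.map_mono h.1, by rw [LinearEquiv.finrank_map_eq, h.2.1],
      by rw [LinearEquiv.finrank_map_eq, h.2.2]⟩)
    (fun P P' hP hP' => by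
      obtain ⟨g, h1, h2⟩ := exists_equiv_flag hP.1 hP'.1 (hP.2.1.trans hP'.2.1.symm)
        (hP.2.2.trans hP'.2.2.symm)
      exact ⟨⟨g, zero_isIso _⟩, Prod.ext h1 h2⟩) fun S hS => ?_
  obtain ⟨U, h1, -, h3, h4⟩ := exists_ts_ge _ S hS m (zero_hp (hm.trans hl)) (zero_ts ⊥)
    (by simp) (by simp)
  obtain ⟨W, -, h6, h7, h8⟩ := exists_ts_ge _ S hS l (zero_hp hl) h1 (by omega) h4
  exact ⟨(U, W), ⟨h6, h3, h7⟩, fun g hg => Prod.ext (h4 g hg) (h8 g hg)⟩

theorem mod_lt_of_ord_dvd {n k i : ℕ} (h : ∃ j, n - k < j ∧ j ≤ n ∧ i ∣ j) : n % i < k := by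
  by_contra hk
  obtain ⟨j, h1, h2, c, rfl⟩ := h
  have h3 := Nat.mod_add_div n i
  have h4 : i * (n / i) < i * c := by omega
  have h5 : n / i < c := lt_of_mul_lt_mul_left h4 (Nat.zero_le _)
  rcases Nat.eq_zero_or_pos i with rfl | hi
  · omega
  · have := (Nat.le_div_iff_mul_le hi).2 (show c * i ≤ n by rwa [mul_comm])
    omega

theorem exists_le_replicate_iff {k r m : ℕ} (hm : m ≤ r * k) :
    (∃ ν ≤ Multiset.replicate k r, ν.sum = m) ↔ r ∣ m := by
  constructor
  · rintro ⟨ν, hν, rfl⟩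
    obtain ⟨l, -, rfl⟩ := Multiset.le_replicate_iff.1 hν
    simp
  · rintro ⟨l, rfl⟩
    rcases Nat.eq_zero_or_pos r with rfl | hr
    · exact ⟨0, Multiset.zero_le _, by simp⟩
    · exact ⟨Multiset.replicate l r,
        (Multiset.replicate_le_replicate _).2 (le_of_mul_le_mul_left hm hr), by simp [mul_comm]⟩

theorem replicate_ne_zero {α : Type*} {k : ℕ} (hk : k ≠ 0) (a : α) :
    Multiset.replicate k a ≠ 0 := fun h => hk (by simpa using congrArg Multiset.card h)

theorem eq_rep_of_le_two {μ : Multiset ℕ} (h1 : ∀ a ∈ μ, 0 < a ∧ a ≤ 2) :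
    μ = Multiset.replicate (μ.count 1) 1 + Multiset.replicate (μ.count 2) 2 := by
  ext a
  rw [Multiset.count_add, Multiset.count_replicate, Multiset.count_replicate]
  by_cases ha : a ∈ μ
  · have := h1 a ha
    obtain rfl | rfl : a = 1 ∨ a = 2 := by omega
    · simp
    · simp
  · have h0 := Multiset.count_eq_zero_of_notMem ha
    split_ifs with h4 h5 h5
    · omega
    · subst h4; simp
    · subst h5; simp
    · exact h0

theorem partition_two_iff {n m : ℕ} (hmn : m ≤ n) :
    (∀ μ : Multiset ℕ, (∀ a ∈ μ, 0 < a ∧ a ≤ 2) → μ.sum = n → ∃ ν ≤ μ, ν.sum = m) ↔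
      (Odd n ∨ Even m) := by
  constructor
  · intro h
    by_contra H
    rw [not_or, Nat.not_odd_iff_even] at H
    obtain ⟨⟨k, hk⟩, h2⟩ := H
    have := h (Multiset.replicate k 2) (fun a ha => by simp [Multiset.eq_of_mem_replicate ha])
      (by simp; omega)
    rw [exists_le_replicate_iff (by omega)] at this
    exact h2 (even_iff_two_dvd.2 this)
  · intro h μ h1 h2
    rw [eq_rep_of_le_two h1] at h2 ⊢
    rw [exists_le_rep_iff]
    simp only [Multiset.sum_add, Multiset.sum_replicate, smul_eq_mul, mul_one] at h2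
    apply exists_le_rep_of_mod (by omega)
    rcases h with ⟨k, hk⟩ | ⟨k, hk⟩ <;> omega

theorem exists_le_of_all_one {μ : Multiset ℕ} (h : ∀ a ∈ μ, a = 1) {m : ℕ} (hm : m ≤ μ.sum) :
    ∃ ν ≤ μ, ν.sum = m := by
  obtain ⟨k, rfl⟩ : ∃ k, μ = Multiset.replicate k 1 := ⟨_, Multiset.eq_replicate_card.2 h⟩
  rw [exists_le_replicate_iff (by simpa using hm)]
  exact one_dvd _

theorem two_lt_of_ne_two {r : ℕ} (hr : r.Prime) (h : r ≠ 2) : 2 < r :=
  lt_of_le_of_ne hr.two_le h.symm

theorem ss_criterion (hrp : r ≠ p) {m : ℕ} (hm : 1 ≤ m) (hmn : m ≤ finrank F V)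
    (hΩ : ∃ j, finrank F V - m < j ∧ j ≤ finrank F V ∧ orderOf (Fintype.card F : ZMod r) ∣ j)
    (Φ : End F V → Prop) (hs : ∀ T (c : F), c ≠ 0 → Φ (c • T) → Φ T)
    (hΦ : ∀ T (a : F[X]), Squarefree a → aeval T a = 0 → (Φ T ↔ ∃ ν ≤ dims (ed T), ν.sum = m)) :
    (∀ T : End F V, LinearMap.det T = 1 → IsPE r T → Φ T) ↔
      ((orderOf (Fintype.card F : ZMod r) = 1 ∧
          (r ∣ m ∨ NoNS r (finrank F V) (Fintype.card F))) ∨
        (2 ≤ orderOf (Fintype.card F : ZMod r) ∧ orderOf (Fintype.card F : ZMod r) ≤ m ∧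
          m % orderOf (Fintype.card F : ZMod r) ≤
            finrank F V % orderOf (Fintype.card F : ZMod r))) := by
  have hi := ord_pos (F := F) hrp
  by_cases h1 : orderOf (Fintype.card F : ZMod r) = 1
  · have hq := (orderOf_eq_one_iff_dvd Fintype.card_pos).1 h1
    rw [forall_det_one hq (by omega) Φ (r ∣ m) hs]
    · simp [h1]
    · intro T hT
      rw [hΦ T _ (squarefree_sub_one hrp) (aeval_X_pow_sub_one_eq_zero.2 hT),
        dims_ed_of_dvd hrp hq hT]
      exact ⟨Multiset.replicate m 1, (Multiset.replicate_le_replicate _).2 hmn, by simp⟩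
    · intro T z hT hz
      obtain ⟨k, h2, h3⟩ := dims_ed_nonsplit hT hz
      rw [hΦ T _ (squarefree_nonsplit hz) (aeval_X_pow_sub_C_eq_zero.2 hT), h3,
        exists_le_replicate_iff (h2 ▸ hmn)]
  · rw [forall_det_ss hrp h1 Φ (fun e t => ∃ e' ≤ e, ∃ a' ≤ Multiset.card t,
      m = e' + orderOf (Fintype.card F : ZMod r) * a') hs]
    · have h2 := mod_lt_of_ord_dvd hΩ
      set i := orderOf (Fintype.card F : ZMod r)
      set n := finrank F V
      simp only [h1, false_and, false_or]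
      constructor
      · intro h
        obtain ⟨f, hf⟩ := exists_mem_cyc (F := F) hrp
        have h3 : i ≤ n := by
          obtain ⟨j, h3, h4, h5⟩ := hΩ
          exact (Nat.le_of_dvd (by omega) h5).trans h4
        obtain ⟨e', he, a', -, h4⟩ := h (n % i) (Multiset.replicate (n / i) f)
          (fun g hg => by rwa [Multiset.eq_of_mem_replicate hg])
          (replicate_ne_zero (Nat.div_pos h3 hi).ne' f) (by simpa using Nat.mod_add_div n i)
        have h5 : m % i ≤ n % i := (mod_le_of_eq_add h4).trans he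
        refine ⟨by omega, ?_, h5⟩
        by_contra h6
        rw [Nat.mod_eq_of_lt (by omega : m < i)] at h5
        omega
      · rintro ⟨-, -, h3⟩ e t - - h4
        exact exists_le_rep_of_mod (by omega) (h3.trans (mod_le_of_eq_add h4.symm))
    · intro T e t hT ht h2
      rw [hΦ T _ (squarefree_sub_one hrp) (aeval_X_pow_sub_one_eq_zero.2 hT), h2,
        dims_ssEd hrp e ht, exists_le_rep_iff]

end CfsgLib.Elusive
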