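import Mathlib
import Cfsg.Agent.Lib.Elusive.LinCount

/-!
Direct-sum decompositions permuted by an endomorphism whose `r`-th power is a scalar.
-/

set_option autoImplicit false

namespace CfsgLib.Elusive

open Polynomial Module CfsgLib.MatConj

variable {F : Type*} [Field F] {V : Type*} [AddCommGroup V] [Module F V]

/-- The action of `F[X]/(g)` defined by an endomorphism killed by `g`. -/
noncomputable def rootAct {T : End F V} {g : F[X]} (h : aeval T g = 0) :
    AdjoinRoot g →ₐ[F] End F V :=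
  Ideal.Quotient.liftₐ (Ideal.span {g}) (aeval T) fun a ha => by
    obtain ⟨b, rfl⟩ := Ideal.mem_span_singleton.1 ha
    rw [map_mul, h, zero_mul]

theorem rootAct_mk {T : End F V} {g : F[X]} (h : aeval T g = 0) (a : F[X]) :
    rootAct h (AdjoinRoot.mk g a) = aeval T a := rfl

theorem rootAct_root {T : End F V} {g : F[X]} (h : aeval T g = 0) :
    rootAct h (AdjoinRoot.root g) = T := by
  rw [← AdjoinRoot.mk_X, rootAct_mk, aeval_X]

theorem inv_finset_sup {ι : Type*} {T : End F V} {S : Finset ι} {D : ι → Submodule F V}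
    (h : ∀ j ∈ S, Inv T (D j)) : Inv T (S.sup D) :=
  Finset.sup_induction (p := Inv T) (inv_bot T) (fun _ h1 _ h2 => h1.sup h2) h

theorem aeval_mem_sup_range {T : End F V} {g : F[X]} (hg : g.Monic) (h : aeval T g = 0)
    (A : Submodule F V) (a : F[X]) {v : V} (hv : v ∈ A) :
    aeval T a v ∈ (Finset.range g.natDegree).sup fun i => A.map (T ^ i) := by
  rcases subsingleton_or_nontrivial V with hV | hV
  · rw [Subsingleton.elim (aeval T a v) 0]; exact Submodule.zero_mem _
  have hg1 : g ≠ 1 := by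
    rintro rfl
    rw [map_one] at h
    exact one_ne_zero h
  rw [← aeval_modByMonic_eq_self_of_root (p := a) h,
    aeval_eq_sum_range' (natDegree_modByMonic_lt a hg hg1), LinearMap.sum_apply]
  refine Submodule.sum_mem _ fun i hi => Submodule.smul_mem _ _ ?_
  exact (Finset.le_sup (f := fun i => A.map (T ^ i)) hi : _ ≤ _) ⟨v, hv, rfl⟩

variable [FiniteDimensional F V]

theorem finrank_sup_le_sum {ι : Type*} (S : Finset ι) (D : ι → Submodule F V) :
    finrank F (S.sup D : Submodule F V) ≤ ∑ j ∈ S, finrank F (D j) := by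
  classical
  induction S using Finset.induction_on with
  | empty => simp
  | insert a S ha ih =>
    rw [Finset.sup_insert, Finset.sum_insert ha]
    exact (Submodule.finrank_add_le_finrank_add_finrank _ _).trans (by omega)

theorem finrank_sup_eq_sum {ι : Type*} {S : Finset ι} {D : ι → Submodule F V}
    (h : S.SupIndep D) : finrank F (S.sup D : Submodule F V) = ∑ j ∈ S, finrank F (D j) := by
  classical
  induction S using Finset.induction_on with
  | empty => simp
  | insert a S ha ih =>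
    rw [Finset.sup_insert, Finset.sum_insert ha, finrank_sup_of_disjoint
      (h (Finset.subset_insert a S) (Finset.mem_insert_self a S) ha),
      ih (h.subset (Finset.subset_insert a S))]

theorem edOn_finset_sup {ι : Type*} {T : End F V} {S : Finset ι} {D : ι → Submodule F V}
    (h : S.SupIndep D) (hinv : ∀ j ∈ S, Inv T (D j)) :
    edOn T (S.sup D) = ∑ j ∈ S, edOn T (D j) := by
  classical
  induction S using Finset.induction_on with
  | empty => simp [edOn_bot]
  | insert a S ha ih =>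
    have h2 : ∀ j ∈ S, Inv T (D j) := fun j hj => hinv j (Finset.mem_insert_of_mem hj)
    rw [Finset.sup_insert, Finset.sum_insert ha, edOn_sup (hinv a (Finset.mem_insert_self a S))
      (inv_finset_sup h2) (h (Finset.subset_insert a S) (Finset.mem_insert_self a S) ha),
      ih (h.subset (Finset.subset_insert a S)) h2]

theorem ed_eq_sum {ι : Type*} [Fintype ι] {T : End F V} {D : ι → Submodule F V}
    (h : iSupIndep D) (htop : iSup D = ⊤) (hinv : ∀ j, Inv T (D j)) :
    ed T = ∑ j, edOn T (D j) := by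
  rw [← edOn_finset_sup (h.supIndep' _) fun j _ => hinv j, Finset.sup_univ_eq_iSup, htop, edOn_top]

theorem iSupIndep_of_finrank {ι : Type*} [Fintype ι] {D : ι → Submodule F V} (htop : iSup D = ⊤)
    (h : ∑ j, finrank F (D j) ≤ finrank F V) : iSupIndep D := by
  classical
  intro i
  have h1 : D i ⊔ ⨆ j, ⨆ _ : j ≠ i, D j = ⊤ := by rw [← htop, ← iSup_split_single]
  have h2 : ⨆ j, ⨆ _ : j ≠ i, D j = (Finset.univ.erase i).sup D := by
    rw [Finset.sup_eq_iSup]; simp
  have h3 := finrank_sup_le_sum (Finset.univ.erase i) D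
  have h4 := Submodule.finrank_sup_add_finrank_inf_eq (D i) (⨆ j, ⨆ _ : j ≠ i, D j)
  rw [← Finset.add_sum_erase _ _ (Finset.mem_univ i)] at h
  rw [h1, finrank_top] at h4
  rw [← h2] at h3
  rw [disjoint_iff, ← Submodule.finrank_eq_zero]
  omega

/-! ### Regular modules -/

open scoped _root_.Classical in
/-- The elementary divisors of the cyclic module `F[X]/(g)`. -/
noncomputable def reg (g : F[X]) : Multiset (F[X] × ℕ) :=
  if hg : g ≠ 0 then
    haveI := finite_model (f := fun _ : Unit => g) fun _ => hg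
    ed (mulX fun _ : Unit => g)
  else 0

theorem reg_eq {g : F[X]} (hg : g ≠ 0) :
    haveI := finite_model (f := fun _ : Unit => g) fun _ => hg
    reg g = ed (mulX fun _ : Unit => g) := dif_pos hg

theorem valid_reg (g : F[X]) : Valid (reg g) := by
  unfold reg
  split_ifs
  · exact @ed_valid _ _ _ _ _ (_) _
  · exact valid_zero

theorem valid_nsmul {s : Multiset (F[X] × ℕ)} (hs : Valid s) (k : ℕ) : Valid (k • s) :=
  fun x hx => hs x (Multiset.mem_of_mem_nsmul hx)

theorem gcdDeg_nsmul (k : ℕ) (s : Multiset (F[X] × ℕ)) (a : F[X]) :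
    gcdDeg (k • s) a = k * gcdDeg s a := by
  induction k with
  | zero => simp [gcdDeg_zero]
  | succ k ih => rw [succ_nsmul, gcdDeg_add, ih]; ring

theorem ed_mulX_const {g : F[X]} (hg : g ≠ 0) (a : ℕ) :
    haveI := finite_model (f := fun _ : Fin a => g) fun _ => hg
    ed (mulX fun _ : Fin a => g) = a • reg g := by
  have := finite_model (f := fun _ : Fin a => g) fun _ => hg
  have := finite_model (f := fun _ : Unit => g) fun _ => hg
  refine ed_eq_of_kerDim (valid_nsmul (valid_reg g) a) fun b => ?_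
  rw [gcdDeg_nsmul, reg_eq hg, ← kerDim_eq_gcdDeg, kerDim_mulX fun _ => hg,
    kerDim_mulX fun _ => hg]
  simp

theorem mdeg_reg {g : F[X]} (hg : g ≠ 0) : mdeg (reg g) = g.natDegree := by
  have := finite_model (f := fun _ : Unit => g) fun _ => hg
  rw [reg_eq hg, ← finrank_eq_mdeg_ed, finrank_model fun _ => hg]
  simp

theorem reg_pow {f : F[X]} (hf : Irreducible f) (hm : f.Monic) {k : ℕ} (hk : 0 < k) :
    reg (f ^ k) = {(f, k)} := by
  have hg := pow_ne_zero k hf.ne_zero
  have := finite_model (f := fun _ : Unit => f ^ k) fun _ => hg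
  rw [reg_eq hg, ed_eq_of_sim_mulX (g := fun _ : Unit => (f, k)) ?_ (Sim.refl _)]
  · rfl
  · intro x hx
    obtain ⟨_, -, rfl⟩ := Multiset.mem_map.1 hx
    exact ⟨hf, hm, hk⟩

theorem reg_irreducible {f : F[X]} (hf : Irreducible f) (hm : f.Monic) : reg f = {(f, 1)} := by
  simpa using reg_pow hf hm one_pos

section Prime

variable {p r : ℕ} [hp : Fact p.Prime] [CharP F p] [hr : Fact r.Prime]

theorem reg_char : reg (X ^ p - 1 : F[X]) = unEd {p} := by
  rw [X_pow_char_sub_one, reg_pow irreducible_X_sub_one monic_X_sub_one hp.out.pos]; rfl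

theorem reg_nonsplit {z : F} (hz : ∀ b : F, b ^ r ≠ z) :
    reg (X ^ r - C z : F[X]) = {(X ^ r - C z, 1)} :=
  reg_irreducible (X_pow_sub_C_irreducible_of_prime hr.out hz) (monic_X_pow_sub_C z hr.out.ne_zero)

theorem reg_ss (hrp : r ≠ p) : reg (X ^ r - 1 : F[X]) = ssEd 1 (cyc F r).val := by
  have hm : (X ^ r - 1 : F[X]).Monic := by simpa using monic_X_pow_sub_C (1 : F) hr.out.ne_zero
  have := finite_model (f := fun _ : Unit => (X ^ r - 1 : F[X])) fun _ => hm.ne_zero
  have ht : ∀ f ∈ (cyc F r).val, f ∈ cyc F r := fun f hf => hf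
  obtain ⟨S, hS⟩ := exists_end_ed_eq (valid_ssEd 1 ht)
  rw [reg_eq hm.ne_zero, ← hS]
  refine (sim_of_charpoly_eq (squarefree_sub_one hrp) (squarefree_sub_one hrp)
    ((aeval_mulX_eq_zero_iff _ _).2 fun _ => dvd_rfl)
    ((aeval_eq_zero_iff_ed _ _).2 (by rw [hS]; exact dvd_of_mem_ssEd 1 ht)) ?_).ed_eq
  rw [charpoly_mulX fun _ => hm, charpoly_eq_prod_ed, hS, ssEd, Multiset.map_add, Multiset.prod_add,
    Multiset.map_map, ← cyclotomic_prime_mul_X_sub_one, ← prod_cyc hrp]
  simp [mul_comm, Function.comp_def]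

end Prime

/-- The span of the translates of `A`, when of full dimension, is a free `F[X]/(g)`-module. -/
theorem edOn_sup_range {T : End F V} {g : F[X]} (hg : g.Monic) (h : aeval T g = 0)
    (A : Submodule F V) (hA : finrank F ((Finset.range g.natDegree).sup (fun i => A.map (T ^ i)) :
      Submodule F V) = finrank F A * g.natDegree) :
    edOn T ((Finset.range g.natDegree).sup fun i => A.map (T ^ i)) = finrank F A • reg g := by
  set a := finrank F A
  have := finite_model (f := fun _ : Fin a => g) fun _ => hg.ne_zero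
  let b := Module.finBasis F A
  let φ : Model (fun _ : Fin a => g) →ₗ[F] V :=
    { toFun := fun y => ∑ l, rootAct h (y l) (b l)
      map_add' := fun y y' => by simp [Finset.sum_add_distrib]
      map_smul' := fun c y => by simp [Finset.smul_sum] }
  have hφ : ∀ y, φ y = ∑ l, rootAct h (y l) (b l) := fun _ => rfl
  have h1 : ∀ y, φ (mulX _ y) = T (φ y) := fun y => by
    simp only [hφ, mulX_apply, map_mul, rootAct_root, map_sum, End.mul_apply]
  have h2 : LinearMap.range φ = (Finset.range g.natDegree).sup fun i => A.map (T ^ i) := by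
    apply le_antisymm
    · rintro _ ⟨y, rfl⟩
      rw [hφ]
      refine Submodule.sum_mem _ fun l _ => ?_
      obtain ⟨c, hc⟩ := AdjoinRoot.mk_surjective (y l)
      rw [← hc, rootAct_mk]
      exact aeval_mem_sup_range hg h A c (b l).2
    · refine Finset.sup_le fun i _ => ?_
      rintro _ ⟨v, hv, rfl⟩
      refine ⟨fun l => b.repr ⟨v, hv⟩ l • AdjoinRoot.root g ^ i, ?_⟩
      have := congrArg (fun w : A => (T ^ i) w) (b.sum_repr ⟨v, hv⟩)
      simp only [Submodule.coe_sum, Submodule.coe_smul, map_sum, map_smul] at this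
      simpa [hφ, rootAct_root] using this
  have h3 : Function.Injective φ := by
    rw [← LinearMap.ker_eq_bot, ← Submodule.finrank_eq_zero]
    have := φ.finrank_range_add_finrank_ker
    rw [h2, hA, finrank_model fun _ => hg.ne_zero] at this
    simpa using this
  rw [← h2, edOn_range φ h3 h1, ed_mulX_const hg.ne_zero]

theorem exists_sup_range_eq {T : End F V} {g : F[X]} (hg : g.Monic) (hg0 : g.natDegree ≠ 0)
    {U : Submodule F V} (hU : Inv T U) {a : ℕ} (h : edOn T U = a • reg g) :
    ∃ A : Submodule F V, finrank F A = a ∧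
      ((Finset.range g.natDegree).sup fun i => A.map (T ^ i)) = U := by
  have := finite_model (f := fun _ : Fin a => g) fun _ => hg.ne_zero
  rw [edOn_eq hU, ← ed_mulX_const hg.ne_zero] at h
  obtain ⟨e, he⟩ := sim_of_ed_eq h.symm
  let ψ : (Fin a → F) →ₗ[F] Model (fun _ : Fin a => g) :=
    { toFun := fun c l => algebraMap F _ (c l)
      map_add' := fun c c' => by ext l; simp
      map_smul' := fun c c' => by ext l; simp [Algebra.smul_def] }
  have hψ : Function.Injective ψ := fun c c' hc => funext fun l =>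
    AdjoinRoot.of.injective_of_degree_ne_zero (fun h0 => hg0 (natDegree_eq_of_degree_eq_some h0))
      (congrFun hc l)
  let φ : Model (fun _ : Fin a => g) →ₗ[F] V := U.subtype ∘ₗ e.toLinearMap
  have hφ : Function.Injective φ := U.injective_subtype.comp e.injective
  have h1 : ∀ y, φ (mulX _ y) = T (φ y) := fun y => by
    simp only [φ, LinearMap.comp_apply, LinearEquiv.coe_coe, he]; rfl
  have h2 : LinearMap.range φ = U := by
    rw [LinearMap.range_comp, LinearEquiv.range, Submodule.map_top, Submodule.range_subtype]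
  refine ⟨LinearMap.range (φ ∘ₗ ψ), ?_, le_antisymm ?_ ?_⟩
  · rw [LinearMap.finrank_range_of_inj (f := φ ∘ₗ ψ) (hφ.comp hψ), finrank_fin_fun]
  · refine Finset.sup_le fun i _ => ?_
    rintro _ ⟨_, ⟨c, rfl⟩, rfl⟩
    exact hU.pow i _ (h2 ▸ ⟨ψ c, rfl⟩)
  · rw [← h2]
    rintro _ ⟨y, rfl⟩
    rw [← Finset.univ_sum_single y, map_sum]
    refine Submodule.sum_mem _ fun l _ => ?_
    obtain ⟨c, hc⟩ := AdjoinRoot.mk_surjective (y l)
    have h3 : Pi.single l (y l) = aeval (mulX fun _ : Fin a => g) (c %ₘ g) (ψ (Pi.single l 1)) := by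
      ext l'
      rw [aeval_mulX_apply]
      by_cases hl : l' = l
      · subst hl
        simp [ψ, ← hc, AdjoinRoot.mk_eq_mk, modByMonic_eq_sub_mul_div c g]
      · simp [ψ, hl]
    have hg1 : g ≠ 1 := fun h0 => hg0 (by rw [h0, natDegree_one])
    rw [h3, intertwine_aeval φ h1, aeval_eq_sum_range' (natDegree_modByMonic_lt c hg hg1),
      LinearMap.sum_apply]
    refine Submodule.sum_mem _ fun i hi => Submodule.smul_mem _ _ ?_
    exact (Finset.le_sup (f := fun i => (LinearMap.range (φ ∘ₗ ψ)).map (T ^ i)) hi : _ ≤ _)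
      ⟨_, ⟨_, rfl⟩, rfl⟩

/-! ### Permuted decompositions -/

/-- `T` permutes a decomposition of `U` into `t` subspaces of dimension `a`, each satisfying `Φ`
and pairwise related by `R`. -/
def PD (Φ : Submodule F V → Prop) (R : Submodule F V → Submodule F V → Prop) (T : End F V)
    (a t : ℕ) (U : Submodule F V) : Prop :=
  finrank F U = a * t ∧ ∃ D : Fin t → Submodule F V, (∀ j, finrank F (D j) = a ∧ Φ (D j)) ∧
    (∀ j j', j ≠ j' → R (D j) (D j')) ∧ iSup D = U ∧
    ∃ σ : Equiv.Perm (Fin t), ∀ j, (D j).map T = D (σ j)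

section PD

variable {Φ : Submodule F V → Prop} {R : Submodule F V → Submodule F V → Prop} {T : End F V}

omit [FiniteDimensional F V] in
theorem PD.of_equiv {a t : ℕ} {U : Submodule F V} {ι : Type*} (e : ι ≃ Fin t)
    (hU : finrank F U = a * t) (D : ι → Submodule F V) (h1 : ∀ j, finrank F (D j) = a ∧ Φ (D j))
    (h2 : ∀ j j', j ≠ j' → R (D j) (D j')) (h3 : iSup D = U) (σ : Equiv.Perm ι)
    (h4 : ∀ j, (D j).map T = D (σ j)) : PD Φ R T a t U :=
  ⟨hU, D ∘ e.symm, fun j => h1 _, fun j j' h => h2 _ _ (e.symm.injective.ne h),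
    by rw [← h3]; exact e.symm.iSup_comp, e.permCongr σ, fun j => by simp [h4]⟩

omit [FiniteDimensional F V] in
theorem PD.zero (a : ℕ) : PD Φ R T a 0 ⊥ :=
  ⟨by simp, Fin.elim0, fun j => j.elim0, fun j => j.elim0, by simp, 1, fun j => j.elim0⟩

omit [FiniteDimensional F V] in
theorem PD.single {a : ℕ} {U : Submodule F V} (hU : finrank F U = a) (h : Φ U)
    (hT : U.map T = U) : PD Φ R T a 1 U :=
  ⟨by simp [hU], fun _ => U, fun _ => ⟨hU, h⟩, fun j j' h => absurd (Subsingleton.elim j j') h,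
    by simp, 1, fun _ => hT⟩

theorem PD.sup {a t t' : ℕ} {U U' : Submodule F V} (h : PD Φ R T a t U) (h' : PD Φ R T a t' U')
    (hd : Disjoint U U') (hR : ∀ A ≤ U, ∀ B ≤ U', R A B ∧ R B A) :
    PD Φ R T a (t + t') (U ⊔ U') := by
  obtain ⟨h0, D, h1, h2, h3, σ, h4⟩ := h
  obtain ⟨k0, E, k1, k2, k3, τ, k4⟩ := h'
  have hD : ∀ j, D j ≤ U := fun j => h3 ▸ le_iSup D j
  have hE : ∀ j, E j ≤ U' := fun j => k3 ▸ le_iSup E j
  refine PD.of_equiv finSumFinEquiv (by rw [finrank_sup_of_disjoint hd, h0, k0, mul_add])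
    (Sum.elim D E) ?_ ?_ (by rw [iSup_sum, ← h3, ← k3]; rfl) (σ.sumCongr τ) ?_
  · rintro (j | j)
    exacts [h1 j, k1 j]
  · rintro (j | j) (j' | j') hj
    · exact h2 j j' fun h => hj (by rw [h])
    · exact (hR _ (hD j) _ (hE j')).1
    · exact (hR _ (hD j') _ (hE j)).2
    · exact k2 j j' fun h => hj (by rw [h])
  · rintro (j | j)
    exacts [h4 j, k4 j]

theorem PD.cycle (hT : Function.Injective T) {r : ℕ} {A : Submodule F V}
    (hA : A.map (T ^ r) = A) (hr : r ≠ 0)
    (hU : finrank F ((Finset.range r).sup (fun i => A.map (T ^ i)) : Submodule F V) =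
      finrank F A * r) (h1 : ∀ i < r, Φ (A.map (T ^ i)))
    (h2 : ∀ i < r, ∀ j < r, i ≠ j → R (A.map (T ^ i)) (A.map (T ^ j))) :
    PD Φ R T (finrank F A) r ((Finset.range r).sup fun i => A.map (T ^ i)) := by
  obtain ⟨r, rfl⟩ := Nat.exists_eq_succ_of_ne_zero hr
  refine ⟨hU, fun i => A.map (T ^ (i : ℕ)), fun i => ⟨?_, h1 i i.2⟩,
    fun i j h => h2 i i.2 j j.2 (Fin.val_injective.ne h), ?_, finRotate _, fun i => ?_⟩
  · refine (LinearEquiv.finrank_eq (Submodule.equivMapOfInjective _ ?_ A)).symm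
    rw [End.coe_pow]; exact hT.iterate _
  · apply le_antisymm
    · exact iSup_le fun i => Finset.le_sup (f := fun i => A.map (T ^ i)) (Finset.mem_range.2 i.2)
    · exact Finset.sup_le fun i hi =>
        le_iSup (fun i : Fin (r + 1) => A.map (T ^ (i : ℕ))) ⟨i, Finset.mem_range.1 hi⟩
  · rw [← Submodule.map_comp, ← End.mul_eq_comp, ← pow_succ']
    by_cases hi : i = Fin.last r
    · subst hi
      simpa [End.one_eq_id] using hA
    · rw [← coe_finRotate_of_ne_last hi]

omit [FiniteDimensional F V] in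
theorem PD.swap (hT : Function.Injective T) {A : Submodule F V} (hA : (A.map T).map T = A)
    (hU : finrank F (A ⊔ A.map T : Submodule F V) = finrank F A * 2) (h1 : Φ A) (h1' : Φ (A.map T))
    (h2 : R A (A.map T)) (h2' : R (A.map T) A) : PD Φ R T (finrank F A) 2 (A ⊔ A.map T) := by
  refine ⟨hU, ![A, A.map T], ?_, ?_, ?_, Equiv.swap 0 1, ?_⟩
  · simp only [Fin.forall_fin_two]
    exact ⟨⟨rfl, h1⟩, (LinearEquiv.finrank_eq (Submodule.equivMapOfInjective _ hT A)).symm, h1'⟩
  · simp [Fin.forall_fin_two, h2, h2']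
  · rw [← Finset.sup_univ_eq_iSup]; simp [Fin.univ_succ]
  · simp [Fin.forall_fin_two, hA]

omit [FiniteDimensional F V] in
theorem PD.smul {a t : ℕ} {U : Submodule F V} {c : F} (hc : c ≠ 0) (h : PD Φ R (c • T) a t U) :
    PD Φ R T a t U := by
  obtain ⟨h0, D, h1, h2, h3, σ, h4⟩ := h
  exact ⟨h0, D, h1, h2, h3, σ, fun j => by rw [← h4, Submodule.map_smul _ _ _ hc]⟩

theorem PD.indep {a t : ℕ} {D : Fin t → Submodule F V} (h0 : finrank F V = a * t)
    (h1 : ∀ j, finrank F (D j) = a) (h3 : iSup D = ⊤) : iSupIndep D :=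
  iSupIndep_of_finrank h3 (by simp [h1, h0, mul_comm])

end PD

/-- Purely linear permuted decompositions. -/
abbrev LPD (T : End F V) (a t : ℕ) (U : Submodule F V) : Prop :=
  PD (fun _ => True) (fun _ _ => True) T a t U

theorem LPD.sup {T : End F V} {a t t' : ℕ} {U U' : Submodule F V} (h : LPD T a t U)
    (h' : LPD T a t' U') (hd : Disjoint U U') : LPD T a (t + t') (U ⊔ U') :=
  PD.sup h h' hd fun _ _ _ _ => ⟨trivial, trivial⟩

omit [FiniteDimensional F V] in
theorem map_pow_eq_of_smul {T : End F V} {r : ℕ} {z : F} (hz : z ≠ 0) (hT : T ^ r = z • 1)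
    (A : Submodule F V) : A.map (T ^ r) = A := by
  rw [hT, Submodule.map_smul _ _ _ hz, End.one_eq_id, Submodule.map_id]

omit [FiniteDimensional F V] in
theorem injective_of_pow_eq_smul {T : End F V} {r : ℕ} (hr : r ≠ 0) {z : F} (hz : z ≠ 0)
    (hT : T ^ r = z • 1) : Function.Injective T := by
  obtain ⟨r, rfl⟩ := Nat.exists_eq_succ_of_ne_zero hr
  rw [injective_iff_map_eq_zero]
  intro v hv
  have := LinearMap.congr_fun hT v
  rw [pow_succ, End.mul_apply, hv, map_zero] at this
  simpa [hz] using this.symm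

theorem lpd_cycles {T : End F V} {r : ℕ} (hr : r ≠ 0) {z : F} (hz : z ≠ 0) (hT : T ^ r = z • 1)
    (a k : ℕ) {U : Submodule F V} (hU : Inv T U)
    (h : edOn T U = (a * k) • reg (X ^ r - C z)) : LPD T a (r * k) U := by
  induction k generalizing U with
  | zero =>
    rw [hU.eq_bot_of_edOn (by simpa using h)]
    exact PD.zero a
  | succ k ih =>
    rw [mul_add, mul_one, add_nsmul] at h
    obtain ⟨A, B, hA, hB, hd, rfl, h1, h2⟩ := exists_split hU h
    rw [mul_add, mul_one]
    refine (ih hA h1).sup ?_ hd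
    have hm := monic_X_pow_sub_C z hr
    obtain ⟨A', rfl, h4⟩ := exists_sup_range_eq hm (by rwa [natDegree_X_pow_sub_C]) hB h2
    rw [natDegree_X_pow_sub_C] at h4
    have h5 := hB.finrank_eq
    rw [h2, mdeg_nsmul, mdeg_reg hm.ne_zero, natDegree_X_pow_sub_C, ← h4] at h5
    rw [← h4]
    exact PD.cycle (injective_of_pow_eq_smul hr hz hT) (map_pow_eq_of_smul hz hT A') hr h5
      (fun _ _ => trivial) fun _ _ _ _ _ => trivial

theorem lpd_fixed {T : End F V} (hT : Function.Injective T) {a i : ℕ} (t : ℕ)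
    {U : Submodule F V} (hU : Inv T U) {e s : ℕ}
    (h : dims (edOn T U) = Multiset.replicate e 1 + Multiset.replicate s i)
    (hn : e + i * s = a * t) (hs : s ≤ t * (a / i)) : LPD T a t U := by
  induction t generalizing U e s with
  | zero =>
    have : finrank F U = 0 := by
      rw [hU.finrank_eq, ← sum_dims, h]
      simpa [mul_comm] using hn
    rw [Submodule.finrank_eq_zero.1 this]
    exact PD.zero a
  | succ t ih =>
    have h1 := Nat.mul_div_le a i
    obtain ⟨s₁, s₂, rfl, h2, h3, h4⟩ : ∃ s₁ s₂, s = s₁ + s₂ ∧ s₁ ≤ a / i ∧ s₂ ≤ t * (a / i) ∧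
        i * s₂ ≤ a * t := by
      rw [add_mul, one_mul] at hs
      by_cases h2 : s ≤ a / i
      · exact ⟨s, 0, rfl, h2, Nat.zero_le _, Nat.zero_le _⟩
      · refine ⟨a / i, s - a / i, by omega, le_rfl, by omega, ?_⟩
        calc i * (s - a / i) ≤ i * (t * (a / i)) := Nat.mul_le_mul_left _ (by omega)
          _ = i * (a / i) * t := by ring
          _ ≤ a * t := Nat.mul_le_mul_right _ h1
    have h5 : i * s₁ ≤ a := (Nat.mul_le_mul_left i h2).trans h1
    rw [mul_add, mul_add, mul_one] at hn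
    obtain ⟨e₁, he₁⟩ : ∃ e₁, e₁ + i * s₁ = a := ⟨a - i * s₁, by omega⟩
    obtain ⟨e₂, rfl⟩ : ∃ e₂, e = e₁ + e₂ := ⟨e - e₁, by omega⟩
    rw [Multiset.replicate_add, Multiset.replicate_add, add_add_add_comm] at h
    obtain ⟨A, B, hA, hB, hd, rfl, h6, h7⟩ := exists_split_dims hU (h ▸ Multiset.le_add_right _ _)
    rw [h, add_right_inj] at h7
    rw [add_comm t 1]
    refine LPD.sup (PD.single ?_ trivial (hA.map_eq hT)) (ih hB h7.symm (by omega) h3) hd
    rw [hA.finrank_eq, ← sum_dims, h6]
    simpa [mul_comm] using he₁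

/-! ### Structure of permuted decompositions -/

section Structure

variable {ι : Type*} [Fintype ι] [DecidableEq ι] {D : ι → Submodule F V} {T : End F V}
  {r : ℕ} [hr : Fact r.Prime] {z : F} {σ : Equiv.Perm ι} {a : ℕ}

omit [FiniteDimensional F V] [Fintype ι] [DecidableEq ι] hr in
theorem map_pow_of_perm (hσ : ∀ j, (D j).map T = D (σ j)) (i : ℕ) (j : ι) :
    (D j).map (T ^ i) = D ((σ ^ i) j) := by
  induction i with
  | zero => simp [End.one_eq_id]
  | succ i ih =>
    rw [pow_succ', End.mul_eq_comp, Submodule.map_comp, ih, hσ, pow_succ', Equiv.Perm.mul_apply]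

theorem edOn_orbit (hind : iSupIndep D) (hdim : ∀ j, finrank F (D j) = a) (ha : a ≠ 0)
    (hσ : ∀ j, (D j).map T = D (σ j)) (hz : z ≠ 0) (hT : T ^ r = z • 1) {j : ι} (hj : σ j ≠ j) :
    (Finset.univ.filter (σ.SameCycle j)).card = r ∧
      edOn T ((Finset.univ.filter (σ.SameCycle j)).sup D) = a • reg (X ^ r - C z) := by
  have hinj : Function.Injective D := hind.injective fun j h => ha (by rw [← hdim j, h]; simp)
  have h1 : σ ^ r = 1 := Equiv.ext fun j => hinj (by
    rw [← map_pow_of_perm hσ, map_pow_eq_of_smul hz hT]; rfl)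
  have h2 : Function.minimalPeriod σ j = r := Function.minimalPeriod_eq_prime
    (by change σ^[r] j = j; rw [← Equiv.Perm.coe_pow, h1]; rfl) hj
  have h3 : Set.InjOn (fun i => (σ ^ i) j) (Finset.range r) := by
    intro i hi i' hi' h
    refine Function.iterate_injOn_Iio_minimalPeriod (f := σ) (x := j) ?_ ?_ ?_
    · rw [h2]; simpa using hi
    · rw [h2]; simpa using hi'
    · simpa [← Equiv.Perm.coe_pow] using h
  have h4 : Finset.univ.filter (σ.SameCycle j) = (Finset.range r).image fun i => (σ ^ i) j := by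
    ext j'
    simp only [Finset.mem_filter, Finset.mem_univ, true_and, Finset.mem_image, Finset.mem_range]
    constructor
    · intro h
      obtain ⟨i, hi, rfl⟩ := h.exists_pow_eq'
      exact ⟨i, hi.trans_le (Nat.le_of_dvd hr.out.pos (orderOf_dvd_of_pow_eq_one h1)), rfl⟩
    · rintro ⟨i, -, rfl⟩
      exact ⟨i, by simp⟩
  have h5 : (Finset.univ.filter (σ.SameCycle j)).card = r := by
    rw [h4, Finset.card_image_of_injOn h3, Finset.card_range]
  refine ⟨h5, ?_⟩
  have h6 : (Finset.univ.filter (σ.SameCycle j)).sup D =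
      (Finset.range (X ^ r - C z : F[X]).natDegree).sup fun i => (D j).map (T ^ i) := by
    rw [h4, Finset.sup_image, natDegree_X_pow_sub_C]
    exact Finset.sup_congr rfl fun i _ => (map_pow_of_perm hσ i j).symm
  rw [h6, edOn_sup_range (monic_X_pow_sub_C z hr.out.ne_zero) (aeval_X_pow_sub_C_eq_zero.2 hT),
    hdim]
  rw [← h6, finrank_sup_eq_sum (hind.supIndep' _), natDegree_X_pow_sub_C]
  simp [hdim, h5, mul_comm]

omit [FiniteDimensional F V] [Fintype ι] hr in
theorem inv_sup_of_perm (hσ : ∀ j, (D j).map T = D (σ j)) {S : Finset ι}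
    (hS : ∀ j ∈ S, σ j ∈ S) : Inv T (S.sup D) := by
  rw [inv_iff_map_le, Submodule.map_le_iff_le_comap]
  refine Finset.sup_le fun j hj => ?_
  rw [← Submodule.map_le_iff_le_comap, hσ]
  exact Finset.le_sup (hS j hj)

theorem edOn_of_perm (hind : iSupIndep D) (hdim : ∀ j, finrank F (D j) = a) (ha : a ≠ 0)
    (hσ : ∀ j, (D j).map T = D (σ j)) (hz : z ≠ 0) (hT : T ^ r = z • 1) (S : Finset ι)
    (hS : ∀ j, σ j ∈ S ↔ j ∈ S) :
    ∃ k, S.card = r * k + (S.filter fun j => σ j = j).card ∧
      edOn T (S.sup D) = (a * k) • reg (X ^ r - C z) +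
        ∑ j ∈ S.filter fun j => σ j = j, edOn T (D j) := by
  induction S using Finset.strongInduction with
  | H S ih =>
    by_cases h : ∀ j ∈ S, σ j = j
    · refine ⟨0, by simp [Finset.filter_true_of_mem h], ?_⟩
      rw [Finset.filter_true_of_mem h, edOn_finset_sup (hind.supIndep' _)
        fun j hj => inv_iff_map_le.2 (by rw [hσ, h j hj])]
      simp
    · push Not at h
      obtain ⟨j, hjS, hj⟩ := h
      obtain ⟨h1, h2⟩ := edOn_orbit hind hdim ha hσ hz hT hj
      set O := Finset.univ.filter (σ.SameCycle j) with hO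
      have hO1 : ∀ j', σ j' ∈ O ↔ j' ∈ O := fun j' => by simp [hO]
      have hOS : O ⊆ S := by
        intro j' hj'
        obtain ⟨i, -, rfl⟩ := (Finset.mem_filter.1 hj').2.exists_pow_eq'
        clear hj'
        induction i with
        | zero => exact hjS
        | succ i ih => rw [pow_succ', Equiv.Perm.mul_apply, hS]; exact ih
      have hjO : j ∈ O := by simp [hO, Equiv.Perm.SameCycle.refl]
      obtain ⟨k, h3, h4⟩ := ih (S \ O) (Finset.sdiff_ssubset hOS ⟨j, hjO⟩)
        fun j' => by simp only [Finset.mem_sdiff, hS, hO1]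
      have h5 : (S \ O).filter (fun j => σ j = j) = S.filter fun j => σ j = j := by
        ext j'
        simp only [Finset.mem_filter, Finset.mem_sdiff]
        refine ⟨fun h => ⟨h.1.1, h.2⟩, fun h => ⟨⟨h.1, fun h' => hj ?_⟩, h.2⟩⟩
        exact (Finset.mem_filter.1 h').2.apply_eq_self_iff.2 h.2
      rw [h5] at h3 h4
      refine ⟨k + 1, ?_, ?_⟩
      · rw [← Finset.card_sdiff_add_card_eq_card hOS, h3, h1]; ring
      · conv_lhs => rw [← Finset.sdiff_union_of_subset hOS, Finset.sup_union]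
        rw [edOn_sup (inv_sup_of_perm hσ fun j' => by simp only [Finset.mem_sdiff, hS, hO1, imp_self])
          (inv_sup_of_perm hσ fun j' => (hO1 j').2)
          ((hind.supIndep' S).disjoint_sup_sup Finset.sdiff_subset hOS Finset.sdiff_disjoint),
          h2, h4, mul_add, mul_one, add_nsmul]
        abel

theorem ed_of_perm (hind : iSupIndep D) (htop : iSup D = ⊤) (hdim : ∀ j, finrank F (D j) = a)
    (ha : a ≠ 0) (hσ : ∀ j, (D j).map T = D (σ j)) (hz : z ≠ 0) (hT : T ^ r = z • 1) :
    ∃ (k : ℕ) (S : Finset ι), (∀ j ∈ S, Inv T (D j)) ∧ Fintype.card ι = r * k + S.card ∧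
      ed T = (a * k) • reg (X ^ r - C z) + ∑ j ∈ S, edOn T (D j) := by
  obtain ⟨k, h1, h2⟩ := edOn_of_perm hind hdim ha hσ hz hT Finset.univ (by simp)
  rw [Finset.sup_univ_eq_iSup, htop, edOn_top] at h2
  exact ⟨k, _, fun j hj => inv_iff_map_le.2 (by rw [hσ, (Finset.mem_filter.1 hj).2]), h1, h2⟩

end Structure

end CfsgLib.Elusive
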