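import Mathlib
import Cfsg.Prelude.Def_GeometricClasses
import Cfsg.Agent.Lib.Elusive.Decomp

/-!
Permuted decompositions of coordinate spaces.
-/

set_option autoImplicit false

namespace CfsgLib.Elusive

open Polynomial Module CfsgLib.MatConj Cfsg.Geo

variable {F : Type*} [Field F] {ι : Type} [Fintype ι] [DecidableEq ι]

theorem pd_top_iff {Φ : Submodule F (ι → F) → Prop}
    {R : Submodule F (ι → F) → Submodule F (ι → F) → Prop} {T : End F (ι → F)} {a t : ℕ}
    (ha : 0 < a) (ht : 2 ≤ t) (hn : Fintype.card ι = a * t) :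
    PD Φ R T a t ⊤ ↔ ∃ D : Fin t → Submodule F (ι → F),
      (IsMDecomposition a D ∧ (∀ j, Φ (D j)) ∧ ∀ j j', j ≠ j' → R (D j) (D j')) ∧
      ∃ σ : Equiv.Perm (Fin t), ∀ j, (D j).map T = D (σ j) := by
  have h0 : finrank F (ι → F) = a * t := by rw [finrank_fintype_fun_eq_card, hn]
  constructor
  · rintro ⟨-, D, h1, h2, h3, h4⟩
    exact ⟨D, ⟨⟨ht, ha, fun j => (h1 j).1, PD.indep h0 (fun j => (h1 j).1) h3, h3⟩,
      fun j => (h1 j).2, h2⟩, h4⟩
  · rintro ⟨D, ⟨h1, h2, h3⟩, h4⟩
    exact ⟨by rw [finrank_top, h0], D, fun j => ⟨h1.finrank_eq j, h2 j⟩, h3, h1.iSup_eq_top, h4⟩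

theorem lpd_top_iff {T : End F (ι → F)} {a t : ℕ} (ha : 0 < a) (ht : 2 ≤ t)
    (hn : Fintype.card ι = a * t) :
    LPD T a t ⊤ ↔ ∃ D : Fin t → Submodule F (ι → F), IsMDecomposition a D ∧
      ∃ σ : Equiv.Perm (Fin t), ∀ j, (D j).map T = D (σ j) := by
  rw [LPD, pd_top_iff ha ht hn]; simp

theorem isMDecomposition_comp {a t : ℕ} {D : Fin t → Submodule F (ι → F)}
    (h : IsMDecomposition a D) (σ : Equiv.Perm (Fin t)) : IsMDecomposition a (D ∘ σ) :=
  ⟨h.two_le, h.pos, fun _ => h.finrank_eq _, h.indep.comp σ.injective,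
    by rw [← h.iSup_eq_top]; exact σ.iSup_comp⟩

theorem isMDecomposition_injective {a t : ℕ} {D : Fin t → Submodule F (ι → F)}
    (h : IsMDecomposition a D) : Function.Injective D :=
  h.indep.injective fun j hj => h.pos.ne' (by rw [← h.finrank_eq j, hj]; simp)

theorem isMDecomposition_map {a t : ℕ} {D : Fin t → Submodule F (ι → F)}
    (h : IsMDecomposition a D) (g : (ι → F) ≃ₗ[F] (ι → F)) :
    IsMDecomposition a fun j => (D j).map g.toLinearMap :=
  ⟨h.two_le, h.pos, fun j => by rw [LinearEquiv.finrank_map_eq, h.finrank_eq],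
    h.indep.map_orderIso (Submodule.orderIsoMapComap g),
    by rw [← Submodule.map_iSup, h.iSup_eq_top, Submodule.map_top, LinearEquiv.range]⟩

theorem exists_equiv_of_decomp {t : ℕ} {D E : Fin t → Submodule F (ι → F)} {a : ℕ}
    (hD : IsMDecomposition a D) (hE : IsMDecomposition a E) (e : ∀ j, D j ≃ₗ[F] E j) :
    ∃ g : (ι → F) ≃ₗ[F] (ι → F), ∀ j, ∀ v : D j, g v = e j v := by
  have h1 : Function.Bijective (DirectSum.coeLinearMap D) := (DirectSum.isInternal_submodule_iff_iSupIndep_and_iSup_eq_top D).2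
    ⟨hD.indep, hD.iSup_eq_top⟩
  have h2 : Function.Bijective (DirectSum.coeLinearMap E) := (DirectSum.isInternal_submodule_iff_iSupIndep_and_iSup_eq_top E).2
    ⟨hE.indep, hE.iSup_eq_top⟩
  refine ⟨(LinearEquiv.ofBijective (DirectSum.coeLinearMap D) h1).symm ≪≫ₗ
    (DFinsupp.mapRange.linearEquiv e) ≪≫ₗ LinearEquiv.ofBijective (DirectSum.coeLinearMap E) h2,
    fun j v => ?_⟩
  have : (LinearEquiv.ofBijective (DirectSum.coeLinearMap D) h1).symm v =
      DirectSum.of (fun j => D j) j v := by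
    rw [LinearEquiv.symm_apply_eq]; simp
  rw [LinearEquiv.trans_apply, LinearEquiv.trans_apply, this]
  have h3 : DFinsupp.mapRange.linearEquiv e (DirectSum.of (fun j => D j) j v) =
      DirectSum.of (fun j => E j) j (e j v) := DFinsupp.mapRange_single (hf := fun _ => map_zero _)
  rw [h3]; exact DirectSum.coeLinearMap_of E j _

theorem exists_equiv_map_decomp {t : ℕ} {D E : Fin t → Submodule F (ι → F)} {a : ℕ}
    (hD : IsMDecomposition a D) (hE : IsMDecomposition a E) :
    ∃ g : (ι → F) ≃ₗ[F] (ι → F), ∀ j, (D j).map g.toLinearMap = E j := by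
  let e : ∀ j, D j ≃ₗ[F] E j := fun j =>
    LinearEquiv.ofFinrankEq _ _ (by rw [hD.finrank_eq, hE.finrank_eq])
  obtain ⟨g, hg⟩ := exists_equiv_of_decomp hD hE e
  exact ⟨g, fun j => map_eq_of_equiv (e j) (hg j)⟩

theorem ord_le_of_dvd_card_decomp [Fintype F] {p r : ℕ} [Fact p.Prime] [CharP F p]
    [hr : Fact r.Prime] (hrp : r ≠ p) {a t : ℕ}
    (h : r ∣ Nat.card {D : Fin t → Submodule F (ι → F) // IsMDecomposition a D} / t.factorial)
    (hne : ∃ D : Fin t → Submodule F (ι → F), IsMDecomposition a D) :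
    orderOf (Fintype.card F : ZMod r) ≤ Fintype.card ι := by
  obtain ⟨D, hD⟩ := hne
  have := finite_linearEquiv (F := F) (V := ι → F)
  have h1 := (dvd_of_dvd_div (factorial_dvd_card (IsMDecomposition a) (fun σ D h => isMDecomposition_comp h σ)
    fun D h => isMDecomposition_injective h) h).trans
    (card_dvd_of_trans (fun (g : (ι → F) ≃ₗ[F] (ι → F)) (D : Fin t → Submodule F (ι → F)) j =>
      (D j).map g.toLinearMap) (fun D => funext fun j => map_one_equiv _)
      (fun g h D => funext fun j => map_mul_equiv _ _ _) _ (fun g D h => isMDecomposition_map h g)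
      D hD fun E hE => by
        obtain ⟨g, hg⟩ := exists_equiv_map_decomp hD hE
        exact ⟨g, funext hg⟩)
  rw [card_linearEquiv, finrank_fintype_fun_eq_card] at h1
  have h2 := (hr.out.dvd_mul.1 h1).resolve_left fun h => not_dvd_card hrp (hr.out.dvd_of_dvd_pow h)
  obtain ⟨j, h3, h4, h5⟩ := exists_ord_dvd_of_dvd_prod (F := F) (a := 0) (k := Fintype.card ι)
    (by simpa [glo] using h2)
  exact (Nat.le_of_dvd h3 h5).trans (by omega)

theorem exists_isMDecomposition {a t : ℕ} (ha : 0 < a) (ht : 2 ≤ t)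
    (hn : Fintype.card ι = a * t) : ∃ D : Fin t → Submodule F (ι → F), IsMDecomposition a D := by
  have h1 : dims (edOn (1 : End F (ι → F)) ⊤) =
      Multiset.replicate (a * t) 1 + Multiset.replicate 0 1 := by
    have h2 := eq_replicate_of_irreducible (ed_valid (1 : End F (ι → F)))
      irreducible_X_sub_one monic_X_sub_one ((aeval_eq_zero_iff_ed _ _).1 (by simp))
    have h3 := finrank_eq_mdeg_ed (1 : End F (ι → F))
    rw [h2, mdeg_replicate, finrank_fintype_fun_eq_card, hn] at h3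
    rw [edOn_top, h2, h3, dims, Multiset.map_replicate]
    simp [natDegree_X_sub_one]
  obtain ⟨D, hD, -⟩ := (lpd_top_iff ha ht hn).1
    (lpd_fixed (fun _ _ h => h) t (inv_top _) h1 (by simp) (Nat.zero_le _))
  exact ⟨D, hD⟩

section Cases

variable {V : Type*} [AddCommGroup V] [Module F V] [FiniteDimensional F V]
  {p r : ℕ} [hp : Fact p.Prime] [CharP F p] [hr : Fact r.Prime]

theorem lpd_nonsplit {T : End F V} {z : F} (hT : T ^ r = z • 1) (hz : ∀ b : F, b ^ r ≠ z)
    {a t : ℕ} (hn : finrank F V = a * t) : LPD T a t ⊤ := by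
  have hz0 : z ≠ 0 := fun h => hz 0 (by rw [h, zero_pow hr.out.ne_zero])
  obtain ⟨k, hk⟩ := edOn_nonsplit hT hz ⊤
  have h1 := (inv_top T).finrank_eq
  rw [finrank_top, hk, mdeg_replicate, natDegree_X_pow_sub_C, mul_one, hn] at h1
  rcases hr.out.dvd_mul.1 (show r ∣ a * t from h1 ▸ Dvd.intro_left _ rfl) with ⟨b, rfl⟩ | ⟨b, rfl⟩
  · refine lpd_fixed (injective_of_pow_eq_smul hr.out.ne_zero hz0 hT) (i := r) t (inv_top T)
      (e := 0) (s := k) ?_ (by rw [h1]; ring) ?_
    · rw [hk, dims, Multiset.map_replicate, natDegree_X_pow_sub_C]; simp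
    · rw [Nat.mul_div_cancel_left _ hr.out.pos]
      exact (Nat.eq_of_mul_eq_mul_left hr.out.pos (by linear_combination -h1)).le
  · refine lpd_cycles hr.out.ne_zero hz0 hT a b (inv_top T) ?_
    rw [hk, reg_nonsplit hz, Multiset.nsmul_singleton]
    congr 1
    exact Nat.eq_of_mul_eq_mul_left hr.out.pos (by linear_combination -h1)

theorem lpd_diag [Fintype F] (hrp : r ≠ p) (hq : r ∣ Fintype.card F - 1) {T : End F V}
    (hT : T ^ r = 1) {a t : ℕ} (hn : finrank F V = a * t) : LPD T a t ⊤ :=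
  lpd_fixed (injective_of_pow_eq_smul hr.out.ne_zero one_ne_zero (by rw [hT, one_smul])) (i := 1)
    t (inv_top T) (e := a * t) (s := 0) (by rw [edOn_top, dims_ed_of_dvd hrp hq hT, hn]; simp)
    (by simp) (Nat.zero_le _)

end Cases

end CfsgLib.Elusive
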