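import Mathlib
import Cfsg.Agent.Lib.Elusive.Decomp
import Cfsg.Agent.Lib.MatConj.Tilde
import Cfsg.Agent.Lib.Forms.Herm
import Cfsg.Agent.Lib.Forms.Normal

/-!
Invariant nondegenerate and totally singular subspaces of an isometry: duality of elementary
divisors and extraction of orthogonal blocks in the semisimple case.
-/

set_option autoImplicit false

namespace CfsgLib.Elusive

open Polynomial Module CfsgLib.MatConj CfsgLib.Forms

variable {F : Type*} [Field F] {σ : F →+* F} {V : Type*} [AddCommGroup V] [Module F V]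

/-- An endomorphism preserving the form data. -/
abbrev Isom (P : PQ σ V) (T : End F V) : Prop := P.IsIso T

/-- Nondegenerate subspace. -/
def ND (P : PQ σ V) (U : Submodule F V) : Prop := Disjoint U (P.perp U)

/-- A subspace containing a totally singular subspace of half its dimension. -/
def Plus (P : PQ σ V) (W : Submodule F V) : Prop :=
  ∃ U, U ≤ W ∧ 2 * finrank F U = finrank F W ∧ P.TS U

/-- The dual of a multiset of elementary divisors. -/
noncomputable def dl (σ : F →+* F) (s : Multiset (F[X] × ℕ)) : Multiset (F[X] × ℕ) :=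
  s.map fun x => (tilde σ x.1, x.2)

theorem dl_add (s t : Multiset (F[X] × ℕ)) : dl σ (s + t) = dl σ s + dl σ t := Multiset.map_add _ _ _

theorem dl_zero : dl σ 0 = 0 := rfl

theorem dl_singleton (x : F[X] × ℕ) : dl σ {x} = {(tilde σ x.1, x.2)} := rfl

theorem dl_cons (x : F[X] × ℕ) (s : Multiset (F[X] × ℕ)) :
    dl σ (x ::ₘ s) = (tilde σ x.1, x.2) ::ₘ dl σ s := Multiset.map_cons _ _ _

theorem dl_replicate (k : ℕ) (x : F[X] × ℕ) :
    dl σ (Multiset.replicate k x) = Multiset.replicate k (tilde σ x.1, x.2) :=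
  Multiset.map_replicate _ _ _

theorem dl_unEd [Fintype F] (μ : Multiset ℕ) : dl σ (unEd μ) = unEd μ := by
  simp [dl, unEd, tilde_X_sub_one]

theorem dl_ssEd [Fintype F] (e : ℕ) (t : Multiset F[X]) :
    dl σ (ssEd e t) = ssEd e (t.map (tilde σ)) := by
  simp [dl, ssEd, tilde_X_sub_one]

variable {P : PQ σ V}

theorem nd_iff {U : Submodule F V} : ND P U ↔ ∀ x ∈ U, (∀ y ∈ U, P.B x y = 0) → x = 0 :=
  P.disjoint_perp_iff

theorem nd_iff' {U : Submodule F V} : ND P U ↔ ∀ u ∈ U, u ≠ 0 → ∃ v ∈ U, P.B u v ≠ 0 := by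
  rw [nd_iff]
  refine forall₂_congr fun u _ => ?_
  constructor
  · intro h hu
    by_contra hc
    push Not at hc
    exact hu (h hc)
  · intro h hc
    by_contra hu
    obtain ⟨v, hv, h1⟩ := h hu
    exact h1 (hc v hv)

theorem nd_bot : ND P ⊥ := disjoint_bot_left

theorem nd_top (hP : P.Nondeg) : ND P ⊤ := by
  rw [ND, P.perp_top hP]; exact disjoint_bot_right

theorem ND.sup {A B : Submodule F V} (hA : ND P A) (hB : ND P B) (h : B ≤ P.perp A) :
    ND P (A ⊔ B) := P.disjoint_perp_sup hA hB h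

theorem ND.disjoint {A B : Submodule F V} (hA : ND P A) (h : B ≤ P.perp A) : Disjoint A B :=
  Disjoint.mono_right h hA

theorem ND.nondeg {U : Submodule F V} (h : ND P U) : (P.restrict U).Nondeg :=
  P.restrict_nondeg_iff.2 h

theorem nd_map_subtype {M : Submodule F V} {A : Submodule F M} (h : ND (P.restrict M) A) :
    ND P (A.map M.subtype) := by
  rw [nd_iff] at h ⊢
  rintro _ ⟨x, hx, rfl⟩ hy
  rw [h x hx fun y hy' => hy _ ⟨y, hy', rfl⟩, map_zero]

theorem ts_map_subtype {M : Submodule F V} {A : Submodule F M} (h : (P.restrict M).TS A) :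
    P.TS (A.map M.subtype) := by
  refine ⟨?_, ?_⟩
  · rintro _ ⟨x, hx, rfl⟩
    exact h.1 x hx
  · rintro _ ⟨x, hx, rfl⟩ _ ⟨y, hy, rfl⟩
    exact h.B_eq hy hx

theorem ts_comap_subtype {M A : Submodule F V} (h : P.TS A) :
    (P.restrict M).TS (A.comap M.subtype) :=
  ⟨fun x hx => h.1 x hx, fun _ hx _ hy => h.B_eq hy hx⟩

theorem nd_comap_subtype {M A : Submodule F V} (h : ND P A) (hle : A ≤ M) :
    ND (P.restrict M) (A.comap M.subtype) := by
  rw [nd_iff] at h ⊢
  intro x hx hy
  exact Subtype.ext (h x hx fun y hy' => hy ⟨y, hle hy'⟩ hy')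

theorem ND.map {V' : Type*} [AddCommGroup V'] [Module F V'] {P' : PQ σ V'} {g : V →ₗ[F] V'}
    (hg : ∀ x y, P'.B (g x) (g y) = P.B x y) {U : Submodule F V} (h : ND P U) : ND P' (U.map g) := by
  rw [nd_iff] at h ⊢
  rintro _ ⟨x, hx, rfl⟩ hy
  rw [h x hx fun y hy' => by rw [← hg]; exact hy _ ⟨y, hy', rfl⟩, map_zero]

theorem nd_span_singleton {v : V} (h : P.B v v ≠ 0) : ND P (Submodule.span F {v}) := by
  have := P.disjoint_perp_sup_span (W := ⊥) disjoint_bot_left (u := v) (by simp [P.perp_bot]) h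
  rwa [bot_sup_eq] at this

theorem isIso_restrict {T : End F V} (hT : Isom P T) {U : Submodule F V} (hU : Inv T U) :
    Isom (P.restrict U) (T.restrict hU) :=
  ⟨fun x y => hT.B_eq x y, fun x => hT.N_eq x⟩

theorem isIso_pow {T : End F V} (hT : Isom P T) (k : ℕ) : Isom P (T ^ k) := by
  induction k with
  | zero => exact PQ.IsIso.id P
  | succ k ih => rw [pow_succ]; exact ih.comp hT

theorem isIso_smul {T : End F V} (hT : Isom P T) {c : F} (hc : σ c * c = 1) : Isom P (c • T) := by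
  refine ⟨fun x y => ?_, fun x => ?_⟩
  · rw [LinearMap.smul_apply, LinearMap.smul_apply, P.B_smul_left, P.B_smul_right, hT.B_eq,
      ← mul_assoc, hc, one_mul]
  · have h1 := P.N_smul c (T x)
    rw [hc, one_mul] at h1
    have := P.Λ.add_mem h1 (hT.N_eq x)
    simpa using this

theorem isIso_neg {T : End F V} (hT : Isom P T) : Isom P (-T) := by
  have := isIso_smul hT (c := -1) (by simp)
  rwa [neg_one_smul] at this

theorem norm_eq_one_of_isIso (hP : P.Nondeg) [Nontrivial V] {c : F}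
    (h : Isom P (c • 1)) : σ c * c = 1 := by
  obtain ⟨x, hx⟩ := exists_ne (0 : V)
  by_contra hc
  apply hx
  apply hP
  intro y
  have := h.B_eq x y
  simp only [LinearMap.smul_apply, End.one_apply, P.B_smul_left, P.B_smul_right] at this
  have h2 : (σ c * c - 1) * P.B x y = 0 := by linear_combination this
  exact (mul_eq_zero.1 h2).resolve_left (sub_ne_zero.2 hc)

theorem B_aeval_reflect {T : End F V} (hT : Isom P T) {N : ℕ} {f : F[X]} (hf : f.natDegree ≤ N)
    (x y : V) : P.B (aeval T f x) ((T ^ N) y) = P.B x (aeval T ((f.map σ).reflect N) y) := by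
  refine induction_with_natDegree_le
    (fun f => P.B (aeval T f x) ((T ^ N) y) = P.B x (aeval T ((f.map σ).reflect N) y)) N
    ?_ ?_ ?_ f hf
  · simp
  · intro k r _ hk
    obtain ⟨d, rfl⟩ := Nat.exists_eq_add_of_le hk
    rw [Polynomial.map_mul, map_C, Polynomial.map_pow, map_X, reflect_C_mul_X_pow,
      revAt_le hk, Nat.add_sub_cancel_left]
    simp only [map_mul, aeval_C, map_pow, aeval_X, End.mul_apply, Module.algebraMap_end_apply,
      P.B_smul_left, P.B_smul_right, pow_add, (isIso_pow hT k).B_eq]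
  · intro f g _ _ h1 h2
    simp only [map_add, LinearMap.add_apply, Polynomial.map_add, reflect_add, h1, h2]

theorem B_aeval_tilde {T : End F V} (hT : Isom P T) (f : F[X]) (x y : V) :
    P.B x (aeval T (tilde σ f) y) =
      (σ (f.coeff 0))⁻¹ * P.B (aeval T f x) ((T ^ f.natDegree) y) := by
  rw [B_aeval_reflect hT le_rfl, tilde, map_mul, aeval_C, End.mul_apply,
    Module.algebraMap_end_apply, P.B_smul_right, reverse, natDegree_map]

theorem B_eq_zero_of_ker {T : End F V} (hT : Isom P T) {f : F[X]} {x : V} (hx : aeval T f x = 0)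
    (y : V) : P.B x (aeval T (tilde σ f) y) = 0 := by
  rw [B_aeval_tilde hT, hx]; simp

theorem sing_of_B_eq_zero (hσ : σ ≠ RingHom.id F) {x : V} (h : P.B x x = 0) : P.Sing x := by
  obtain ⟨θ, hθ⟩ := exists_add_conj_eq_one hσ P.σσ
  have h1 := P.Λ_ge (θ * P.N x)
  rw [P.self] at h
  have : θ * P.N x - P.ε * σ (θ * P.N x) = P.N x := by
    rw [map_mul]; linear_combination P.N x * hθ - σ θ * h
  rwa [this] at h1

theorem sing_sub {T : End F V} (hT : Isom P T) {y : V} (h1 : P.B y y = 0)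
    (h2 : P.B (T y) y = 0) : P.Sing (T y - y) := by
  by_cases hσ : σ = RingHom.id F
  · subst hσ
    have h3 := P.N_add_smul (T y) y (-1)
    have h4 := hT.N_eq y
    have h5 : P.N y + P.N y ∈ P.Λ := by
      rcases mul_self_eq_one_iff.1 P.εε with h | h
      · rw [P.self, h] at h1
        simp only [one_mul, RingHom.id_apply] at h1
        rw [h1]; exact P.Λ.zero_mem
      · have := P.Λ_ge (P.N y)
        rw [h] at this
        simpa using this
    have := P.Λ.add_mem (P.Λ.add_mem h3 h4) h5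
    rw [h2] at this
    unfold PQ.Sing
    convert this using 1
    simp only [sub_eq_add_neg, neg_smul, one_smul, RingHom.id_apply]
    ring
  · apply sing_of_B_eq_zero hσ
    have h3 : P.B y (T y) = 0 := P.B_eq_zero_comm.1 h2
    rw [P.B_sub_left, P.B_sub_right, P.B_sub_right, hT.B_eq, h1, h2, h3]; simp

theorem plus_bot : Plus P ⊥ := ⟨⊥, le_rfl, by simp, P.ts_bot⟩

variable [FiniteDimensional F V]

theorem finrank_inf_perp (hP : P.Nondeg) {C X : Submodule F V} (h : Disjoint X (P.perp C)) :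
    finrank F (C ⊓ P.perp X : Submodule F V) + finrank F X = finrank F C := by
  have h1 : C ⊔ P.perp X = ⊤ := by
    apply P.perp_injective hP
    rw [P.perp_sup, P.perp_perp hP, P.perp_top hP, inf_comm]
    exact h.eq_bot
  have h2 := Submodule.finrank_sup_add_finrank_inf_eq C (P.perp X)
  have h3 := P.finrank_perp hP X
  rw [h1, finrank_top] at h2
  omega

theorem ND.perp (hP : P.Nondeg) {U : Submodule F V} (h : ND P U) : ND P (P.perp U) :=
  P.disjoint_perp_perp hP h

theorem ND.sup_inf_perp (hP : P.Nondeg) {A U : Submodule F V} (hA : ND P A) (hle : A ≤ U) :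
    A ⊔ U ⊓ P.perp A = U := by
  rw [inf_comm, ← sup_inf_assoc_of_le _ hle, (P.isCompl_perp hP hA).sup_eq_top, top_inf_eq]

theorem ND.inf_perp (hP : P.Nondeg) {A U : Submodule F V} (hA : ND P A) (hU : ND P U)
    (hle : A ≤ U) : ND P (U ⊓ P.perp A) := by
  rw [ND, disjoint_iff, eq_bot_iff]
  rintro x ⟨⟨h1, h2⟩, h3⟩
  have : x ∈ P.perp U := by
    rw [← hA.sup_inf_perp hP hle, P.perp_sup]
    exact ⟨h2, h3⟩
  exact (hU.le_bot ⟨h1, this⟩ :)

theorem ND.finrank_inf_perp (hP : P.Nondeg) {A U : Submodule F V} (hU : ND P U) (hle : A ≤ U) :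
    finrank F (U ⊓ P.perp A : Submodule F V) + finrank F A = finrank F U :=
  Elusive.finrank_inf_perp hP (Disjoint.mono_left hle hU)

theorem ND.finrank_sup {A B : Submodule F V} (hA : ND P A) (h : B ≤ P.perp A) :
    finrank F (A ⊔ B : Submodule F V) = finrank F A + finrank F B :=
  finrank_sup_of_disjoint (hA.disjoint h)

theorem ND.edOn_sup {T : End F V} {A B : Submodule F V} (hA : ND P A) (h : B ≤ P.perp A)
    (h1 : Inv T A) (h2 : Inv T B) : edOn T (A ⊔ B) = edOn T A + edOn T B :=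
  Elusive.edOn_sup h1 h2 (hA.disjoint h)

theorem Inv.perp (hP : P.Nondeg) {T : End F V} (hT : Isom P T) {U : Submodule F V}
    (h : Inv T U) : Inv T (P.perp U) := by
  intro v hv w hw
  rw [← h.map_eq (hT.injective hP)] at hw
  obtain ⟨w', hw', rfl⟩ := hw
  rw [hT.B_eq]; exact hv w' hw'

theorem ND.edOn_eq (hP : P.Nondeg) {T : End F V} (hT : Isom P T) {A U : Submodule F V}
    (hA : ND P A) (h1 : Inv T A) (h2 : Inv T U) (hle : A ≤ U) :
    edOn T U = edOn T A + edOn T (U ⊓ P.perp A) := by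
  conv_lhs => rw [← hA.sup_inf_perp hP hle]
  exact hA.edOn_sup inf_le_right h1 (h2.inf (h1.perp hP hT))

theorem ND.ed_eq (hP : P.Nondeg) {T : End F V} (hT : Isom P T) {A : Submodule F V}
    (hA : ND P A) (h1 : Inv T A) : ed T = edOn T A + edOn T (P.perp A) :=
  ed_eq_add h1 (h1.perp hP hT) (P.isCompl_perp hP hA)

theorem ND.edOn_le (hP : P.Nondeg) {T : End F V} (hT : Isom P T) {A U : Submodule F V}
    (hA : ND P A) (h1 : Inv T A) (h2 : Inv T U) (hle : A ≤ U) : edOn T A ≤ edOn T U := by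
  rw [hA.edOn_eq hP hT h1 h2 hle]; exact Multiset.le_add_right _ _

theorem Plus.sup {A B : Submodule F V} (hA : Plus P A) (hB : Plus P B) (hd : Disjoint A B)
    (h : B ≤ P.perp A) : Plus P (A ⊔ B) := by
  obtain ⟨U, h1, h2, h3⟩ := hA
  obtain ⟨W, h4, h5, h6⟩ := hB
  refine ⟨U ⊔ W, sup_le_sup h1 h4, ?_, h3.sup h6 (h4.trans (h.trans (P.perp_anti h1)))⟩
  rw [finrank_sup_of_disjoint hd, finrank_sup_of_disjoint (hd.mono h1 h4)]
  omega

/-- Induction along an orthogonal decomposition into invariant blocks. -/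
theorem nd_induction (hP : P.Nondeg) {T : End F V} (hT : Isom P T) {U : Submodule F V}
    (hU : ND P U) (hI : Inv T U) (Blk : Submodule F V → Submodule F V → Prop)
    (M : Submodule F V → Prop)
    (hB : ∀ Y, Y ≤ U → ND P Y → Inv T Y → Y ≠ ⊥ → ∃ A, A ≤ Y ∧ A ≠ ⊥ ∧ ND P A ∧ Inv T A ∧ Blk A Y)
    (h0 : M ⊥)
    (hs : ∀ A Y, A ⊔ Y ≤ U → ND P A → Inv T A → Blk A (A ⊔ Y) → ND P Y → Inv T Y → Y ≤ P.perp A →
      M Y → M (A ⊔ Y)) : M U := by
  suffices H : ∀ n, ∀ Y : Submodule F V, finrank F Y = n → Y ≤ U → ND P Y → Inv T Y → M Y from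
    H _ U rfl le_rfl hU hI
  intro n
  induction n using Nat.strong_induction_on with
  | _ n ih =>
  intro Y hn hle h1 h2
  by_cases hY : Y = ⊥
  · rw [hY]; exact h0
  obtain ⟨A, a1, a2, a3, a4, a5⟩ := hB Y hle h1 h2 hY
  have e := a3.sup_inf_perp hP a1
  have h3 := h1.finrank_inf_perp hP a1
  have h4 : finrank F A ≠ 0 := fun h => a2 (Submodule.finrank_eq_zero.1 h)
  rw [← e]
  exact hs A _ (by rw [e]; exact hle) a3 a4 (by rw [e]; exact a5) (a3.inf_perp hP h1 a1)
    (h2.inf (a4.perp hP hT)) inf_le_right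
    (ih _ (by omega) _ rfl (inf_le_left.trans hle) (a3.inf_perp hP h1 a1) (h2.inf (a4.perp hP hT)))

theorem ne_X_of_mem_edOn {T : End F V} (hT : Function.Injective T) {U : Submodule F V}
    {x : F[X] × ℕ} (hx : x ∈ edOn T U) : x.1 ≠ X := by
  classical
  intro h
  by_cases hU : Inv T U
  · have h1 := gcdDeg_edOn hU (X ^ 1)
    rw [gcdDeg_pow (edOn_valid T U) irreducible_X monic_X, pow_one, aeval_X,
      LinearMap.ker_eq_bot.2 hT, inf_bot_eq, finrank_bot, Multiset.sum_eq_zero_iff] at h1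
    have h2 := h1 _ (Multiset.mem_map_of_mem _ hx)
    have h3 := (edOn_valid T U x hx).2.2
    rw [if_pos h, natDegree_X] at h2
    omega
  · rw [edOn, dif_neg hU] at hx
    simp at hx

theorem coeff_ne_of_mem_edOn {T : End F V} (hT : Function.Injective T) {U : Submodule F V}
    {x : F[X] × ℕ} (hx : x ∈ edOn T U) : x.1.coeff 0 ≠ 0 :=
  coeff_zero_ne_zero_of_ne_X (edOn_valid T U x hx).1 (edOn_valid T U x hx).2.1
    (ne_X_of_mem_edOn hT hx)

theorem finrank_map_add (S : End F V) (W : Submodule F V) :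
    finrank F (W.map S) + finrank F (W ⊓ LinearMap.ker S : Submodule F V) = finrank F W := by
  have h1 := LinearMap.finrank_range_add_finrank_ker (S.domRestrict W)
  rw [LinearMap.range_domRestrict, LinearMap.ker_domRestrict,
    ← Submodule.finrank_map_subtype_eq, Submodule.map_comap_subtype] at h1
  exact h1

/-- Invariant subspaces in perfect pairing have dual elementary divisors. -/
theorem edOn_dual (hP : P.Nondeg) {T : End F V} (hT : Isom P T) {C W : Submodule F V}
    (hC : Inv T C) (hW : Inv T W) (hd : finrank F C = finrank F W) (h : Disjoint W (P.perp C)) :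
    edOn T C = dl σ (edOn T W) := by
  classical
  have hinj := hT.injective hP
  have hσ := P.σσ
  have h' : C ⊓ P.perp W = ⊥ := by
    have := finrank_inf_perp hP h
    exact Submodule.finrank_eq_zero.1 (by omega)
  have hv : Valid (dl σ (edOn T W)) := by
    intro y hy
    obtain ⟨x, hx, rfl⟩ := Multiset.mem_map.1 hy
    obtain ⟨h1, h2, h3⟩ := edOn_valid T W x hx
    have h0 := coeff_ne_of_mem_edOn hinj hx
    exact ⟨irreducible_tilde hσ h1 h2 h0, monic_tilde σ h0, h3⟩
  refine (edOn_valid T C).eq_of_gcdDeg hv fun p hp hm k => ?_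
  by_cases hX : p = X
  · subst hX
    rw [gcdDeg_pow hv hp hm, gcdDeg_pow (edOn_valid T C) hp hm, Multiset.sum_eq_zero,
      Multiset.sum_eq_zero]
    · intro a ha
      obtain ⟨y, hy, rfl⟩ := Multiset.mem_map.1 ha
      obtain ⟨x, hx, rfl⟩ := Multiset.mem_map.1 hy
      exact if_neg (tilde_ne_X (coeff_ne_of_mem_edOn hinj hx))
    · intro a ha
      obtain ⟨y, hy, rfl⟩ := Multiset.mem_map.1 ha
      exact if_neg (ne_X_of_mem_edOn hinj hy)
  · have h0 := coeff_zero_ne_zero_of_ne_X hp hm hX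
    have h0' : σ ((p ^ k).coeff 0) ≠ 0 := by
      rw [_root_.map_ne_zero, coeff_zero_eq_eval_zero, eval_pow, ← coeff_zero_eq_eval_zero]
      exact pow_ne_zero _ h0
    have h1 : C ⊓ LinearMap.ker (aeval T (p ^ k)) =
        C ⊓ P.perp (W.map (aeval T (tilde σ (p ^ k)))) := by
      ext x
      refine and_congr_right fun hx => ⟨fun h1 => ?_, fun h1 => ?_⟩
      · rw [SetLike.mem_coe, P.mem_perp']
        rintro _ ⟨y, -, rfl⟩
        exact B_eq_zero_of_ker hT h1 y
      · have h2 : aeval T (p ^ k) x ∈ C ⊓ P.perp W := by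
          refine ⟨hC.aeval _ x hx, P.mem_perp'.2 fun y hy => ?_⟩
          have hinj' : Function.Injective (T ^ (p ^ k).natDegree) :=
            (isIso_pow hT _).injective hP
          rw [← (hW.pow _).map_eq hinj'] at hy
          obtain ⟨y', hy', rfl⟩ := hy
          have h3 := P.mem_perp'.1 h1 _ ⟨y', hy', rfl⟩
          rw [B_aeval_tilde hT] at h3
          exact (mul_eq_zero.1 h3).resolve_left (inv_ne_zero h0')
        rw [h'] at h2
        exact h2
    have h2 := finrank_inf_perp hP (C := C) (X := W.map (aeval T (tilde σ (p ^ k))))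
      (h.mono_left (inv_iff_map_le.1 (hW.aeval _)))
    have h3 := finrank_map_add (aeval T (tilde σ (p ^ k))) W
    rw [← h1, ← gcdDeg_edOn hC] at h2
    rw [← gcdDeg_edOn hW, tilde_pow] at h3
    rw [tilde_pow] at h2
    rw [show gcdDeg (edOn T C) (p ^ k) = gcdDeg (edOn T W) (tilde σ p ^ k) by omega,
      gcdDeg_pow hv hp hm, gcdDeg_pow (edOn_valid T W) (irreducible_tilde hσ hp hm h0)
        (monic_tilde σ h0), dl, Multiset.map_map]
    congr 1
    refine Multiset.map_congr rfl fun x hx => ?_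
    have h4 : x.1 = tilde σ p ↔ tilde σ x.1 = p := by
      constructor
      · intro h5
        rw [h5, tilde_tilde hσ hm h0]
      · intro h5
        rw [← h5, tilde_tilde hσ (edOn_valid T W x hx).2.1 (coeff_ne_of_mem_edOn hinj hx)]
    simp only [Function.comp_apply, h4, natDegree_tilde σ h0]

theorem ND.dl_edOn (hP : P.Nondeg) {T : End F V} (hT : Isom P T) {U : Submodule F V}
    (hU : ND P U) (hI : Inv T U) : dl σ (edOn T U) = edOn T U :=
  (edOn_dual hP hT hI hI rfl hU).symm

theorem dl_ed (hP : P.Nondeg) {T : End F V} (hT : Isom P T) : dl σ (ed T) = ed T := by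
  rw [← edOn_top]; exact (nd_top hP).dl_edOn hP hT (inv_top T)

theorem perp_inf_perp_inf (hP : P.Nondeg) {U W : Submodule F V} (hU : ND P U) (hle : W ≤ U) :
    U ⊓ P.perp (U ⊓ P.perp W) = W := by
  rw [P.perp_inf hP, P.perp_perp hP, sup_comm, inf_comm, sup_inf_assoc_of_le _ hle, inf_comm,
    hU.eq_bot, sup_bot_eq]

/-- A pair of complementary totally isotropic invariant subspaces. -/
theorem edOn_polar (hP : P.Nondeg) {T : End F V} (hT : Isom P T) {H W C : Submodule F V}
    (hH : ND P H) (hW : Inv T W) (hC : Inv T C) (hd : Disjoint W C) (hs : W ⊔ C = H)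
    (h1 : W ≤ P.perp W) (h2 : finrank F H = 2 * finrank F W) :
    edOn T H = edOn T W + dl σ (edOn T W) := by
  have h3 := finrank_sup_of_disjoint hd
  rw [hs] at h3
  rw [← edOn_dual hP hT hC hW (by omega), ← hs, edOn_sup hW hC hd]
  rw [disjoint_iff, eq_bot_iff]
  rintro x ⟨hx, hx'⟩
  have : x ∈ P.perp H := by
    rw [← hs, P.perp_sup]; exact ⟨h1 hx, hx'⟩
  exact (hH.le_bot ⟨hs ▸ Submodule.mem_sup_left hx, this⟩ :)

theorem ts_split (hP : P.Nondeg) {T : End F V} (hT : Isom P T) {a : F[X]} (ha : Squarefree a)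
    (hTa : aeval T a = 0) {U W : Submodule F V} (hU : ND P U) (hUI : Inv T U)
    (hW : W ≤ P.perp W) (hWI : Inv T W) (hle : W ≤ U) :
    ∃ H, ND P H ∧ Inv T H ∧ W ≤ H ∧ H ≤ U ∧ finrank F H = 2 * finrank F W ∧
      edOn T H = edOn T W + dl σ (edOn T W) := by
  obtain ⟨U', h1, h2, h3⟩ := exists_compl ha hTa hWI (hUI.inf (hWI.perp hP hT)) (le_inf hle hW)
  have h4 : U' ≤ U ⊓ P.perp W := h3 ▸ le_sup_right
  have h5 : ND P U' := by
    rw [ND, disjoint_iff, eq_bot_iff]
    rintro x ⟨hx, hx'⟩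
    have : x ∈ U ⊓ P.perp (U ⊓ P.perp W) := by
      refine ⟨(h4 hx).1, ?_⟩
      rw [← h3, SetLike.mem_coe, P.perp_sup]
      exact ⟨(h4 hx).2, hx'⟩
    rw [perp_inf_perp_inf hP hU hle] at this
    exact (h2.le_bot ⟨this, hx⟩ :)
  have h6 : U' ≤ U := h4.trans inf_le_left
  have h7 := hU.finrank_inf_perp hP hle
  have h8 := hU.finrank_inf_perp hP h6
  have h9 := finrank_sup_of_disjoint h2
  rw [h3] at h9
  have hH := h5.inf_perp hP hU h6
  have hHI := hUI.inf (h1.perp hP hT)
  have hWH : W ≤ U ⊓ P.perp U' := le_inf hle (P.le_perp_comm.1 (h4.trans inf_le_right))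
  obtain ⟨C, c1, c2, c3⟩ := exists_compl ha hTa hWI hHI hWH
  exact ⟨U ⊓ P.perp U', hH, hHI, hWH, inf_le_left, by omega,
    edOn_polar hP hT hH hWI c1 c2 c3 hW (by omega)⟩

theorem ts_of_le_perp {T : End F V} (hT : Isom P T) {A : Submodule F V} (hA : A ≤ P.perp A)
    (hI : Inv T A) (h : σ ≠ RingHom.id F ∨ ∀ x ∈ A, T x = x → x = 0) : P.TS A := by
  refine ⟨fun x hx => ?_, hA⟩
  rcases h with h | h
  · exact sing_of_B_eq_zero h (hA hx x hx)
  · have h1 : Inv (T - 1) A := fun v hv => A.sub_mem (hI v hv) hv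
    have h2 := finrank_map_add (T - 1) A
    have h3 : A ⊓ LinearMap.ker (T - 1) = ⊥ := by
      rw [eq_bot_iff]
      rintro v ⟨hv, hv'⟩
      exact h v hv (sub_eq_zero.1 hv')
    rw [h3, finrank_bot, add_zero] at h2
    rw [← Submodule.eq_of_le_of_finrank_eq (inv_iff_map_le.1 h1) h2] at hx
    obtain ⟨y, hy, rfl⟩ := hx
    exact sing_sub hT (hA hy y hy) (hA hy _ (hI y hy))

end CfsgLib.Elusive
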