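import Mathlib
import Cfsg.Agent.Lib.Elusive.Iso

/-!
Orthogonal blocks of a semisimple isometry: field structures on isotypic components.
-/

set_option autoImplicit false

namespace CfsgLib.Elusive

open Polynomial Module CfsgLib.MatConj CfsgLib.Forms

variable {F : Type*} [Field F] {σ : F →+* F} {V : Type*} [AddCommGroup V] [Module F V]

section KStr

variable {K : Type*} [Field K] [Algebra F K]

/-- A field of endomorphisms closed under adjoints, with nontrivial adjoint involution. -/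
structure KStr (P : PQ σ V) (φ : K →ₐ[F] End F V) (τ : K →+* K) : Prop where
  ττ : ∀ k, τ (τ k) = k
  ne : τ ≠ RingHom.id K
  adj : ∀ k x y, P.B (φ k x) y = P.B x (φ (τ k) y)

/-- The orbit map of a vector under a field of endomorphisms. -/
def orbMap (φ : K →ₐ[F] End F V) (v : V) : K →ₗ[F] V := (LinearMap.applyₗ v).comp φ.toLinearMap

theorem orbMap_apply (φ : K →ₐ[F] End F V) (v : V) (k : K) : orbMap φ v k = φ k v := rfl

theorem act_mul (φ : K →ₐ[F] End F V) (a b : K) (v : V) : φ a (φ b v) = φ (a * b) v := by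
  rw [map_mul]; rfl

theorem orbMap_injective (φ : K →ₐ[F] End F V) {v : V} (hv : v ≠ 0) :
    Function.Injective (orbMap φ v) := by
  rw [injective_iff_map_eq_zero]
  intro k hk
  by_contra h
  apply hv
  have : φ k⁻¹ (φ k v) = v := by rw [act_mul, inv_mul_cancel₀ h, map_one]; rfl
  rw [← this, ← orbMap_apply φ v k, hk, map_zero]

/-- The one-dimensional subspace over the bigger field spanned by a vector. -/
def orb (φ : K →ₐ[F] End F V) (v : V) : Submodule F V := LinearMap.range (orbMap φ v)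

theorem mem_orb {φ : K →ₐ[F] End F V} {v x : V} : x ∈ orb φ v ↔ ∃ k, φ k v = x := Iff.rfl

theorem self_mem_orb (φ : K →ₐ[F] End F V) (v : V) : v ∈ orb φ v := ⟨1, by simp [orbMap_apply]⟩

theorem inv_orb (φ : K →ₐ[F] End F V) (v : V) (k : K) : Inv (φ k) (orb φ v) := by
  rintro _ ⟨a, rfl⟩
  exact ⟨k * a, (act_mul φ k a v).symm⟩

theorem orb_le {φ : K →ₐ[F] End F V} {v : V} {Y : Submodule F V} (hY : ∀ k, Inv (φ k) Y)
    (hv : v ∈ Y) : orb φ v ≤ Y := by
  rintro _ ⟨a, rfl⟩
  exact hY a v hv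

theorem finrank_orb (φ : K →ₐ[F] End F V) {v : V} (hv : v ≠ 0) :
    finrank F (orb φ v) = finrank F K := LinearMap.finrank_range_of_inj (orbMap_injective φ hv)

variable {P : PQ σ V} {φ : K →ₐ[F] End F V} {τ : K →+* K}

theorem KStr.inv_perp (h : KStr P φ τ) {Y : Submodule F V} (hY : ∀ k, Inv (φ k) Y) (k : K) :
    Inv (φ k) (P.perp Y) := by
  intro v hv
  rw [P.mem_perp'] at hv ⊢
  intro w hw
  rw [h.adj]; exact hv _ (hY _ w hw)

theorem KStr.B_τ (h : KStr P φ τ) (k : K) (x y : V) :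
    P.B x (φ (τ k) y) = P.ε * σ (P.B y (φ k x)) := by
  rw [← h.adj, P.symm]

theorem KStr.exists_ne (h : KStr P φ τ) {Y : Submodule F V} (hY : ∀ k, Inv (φ k) Y) (hN : ND P Y)
    (h0 : Y ≠ ⊥) : ∃ v ∈ Y, ∃ k, P.B v (φ k v) ≠ 0 := by
  by_contra hc
  push Not at hc
  obtain ⟨v, hv, hv0⟩ := Submodule.exists_mem_ne_zero_of_ne_bot h0
  have h1 : ∀ w ∈ Y, ∀ k, P.B v (φ k w) = -(P.ε * σ (P.B v (φ (τ k) w))) := by
    intro w hw k
    have h2 := hc (v + w) (Y.add_mem hv hw) k
    rw [map_add (φ k), P.B_add_left, P.B_add_right, P.B_add_right, hc v hv, hc w hw] at h2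
    have h3 := h.B_τ (τ k) w v
    rw [h.ττ] at h3
    linear_combination h2 - h3
  obtain ⟨θ, hθ⟩ : ∃ θ, τ θ ≠ θ := by
    by_contra hc'
    push Not at hc'
    exact h.ne (RingHom.ext hc')
  apply hv0
  refine nd_iff.1 hN v hv fun w hw => ?_
  have h2 := h1 w hw (τ (τ θ - θ)⁻¹ * θ)
  have h3 := h1 (φ θ w) (hY θ w hw) (τ (τ θ - θ)⁻¹)
  rw [act_mul, act_mul, h.ττ, h2, map_mul, h.ττ, neg_inj, mul_right_inj' P.ε_ne,
    σ.injective.eq_iff, ← sub_eq_zero, ← P.B_sub_right, ← LinearMap.sub_apply, ← map_sub,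
    ← mul_sub, inv_mul_cancel₀ (sub_ne_zero.2 hθ), map_one] at h3
  exact h3

theorem KStr.nd_orb (h : KStr P φ τ) {v : V} {k : K} (hk : P.B v (φ k v) ≠ 0) : ND P (orb φ v) := by
  rw [nd_iff]
  rintro _ ⟨a, rfl⟩ hy
  by_cases ha : a = 0
  · rw [ha, map_zero]
  exfalso
  apply hk
  have h1 := hy _ ⟨(τ a)⁻¹ * k, rfl⟩
  rwa [orbMap_apply, orbMap_apply, h.adj, act_mul, ← mul_assoc,
    mul_inv_cancel₀ ((_root_.map_ne_zero τ).2 ha), one_mul] at h1

theorem KStr.orb_le_perp (h : KStr P φ τ) {u : V} (hu : ∀ k, P.B u (φ k u) = 0) :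
    orb φ u ≤ P.perp (orb φ u) := by
  rintro _ ⟨a, rfl⟩ _ ⟨b, rfl⟩
  rw [orbMap_apply, orbMap_apply, h.adj, act_mul, hu]

theorem exists_mul_eq_of_functional [FiniteDimensional F K] {l : K →ₗ[F] F} (hl : l ≠ 0)
    (m : K →ₗ[F] F) : ∃ h, ∀ k, m k = l (h * k) := by
  let Φ : K →ₗ[F] Dual F K := ((LinearMap.llcomp F K K F) l).comp (LinearMap.mul F K)
  have hinj : Function.Injective Φ := by
    rw [injective_iff_map_eq_zero]
    intro a ha
    by_contra h0
    apply hl
    ext k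
    have := LinearMap.congr_fun ha (a⁻¹ * k)
    simpa [Φ, ← mul_assoc, mul_inv_cancel₀ h0] using this
  have hs : Function.Surjective Φ :=
    (LinearMap.injective_iff_surjective_of_finrank_eq_finrank (Subspace.dual_finrank_eq).symm).1 hinj
  obtain ⟨h, hh⟩ := hs m
  exact ⟨h, fun k => by rw [← hh]; rfl⟩

theorem eq_of_functional {l : K →ₗ[F] F} (hl : l ≠ 0) {a b : K} (h : ∀ k, l (a * k) = l (b * k)) :
    a = b := by
  by_contra hab
  apply hl
  ext k
  have := h ((a - b)⁻¹ * k)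
  rw [← sub_eq_zero, ← map_sub, ← sub_mul, ← mul_assoc, mul_inv_cancel₀ (sub_ne_zero.2 hab),
    one_mul] at this
  exact this

theorem KStr.exists_isotropic [FiniteDimensional F V] [Finite K] (hP : P.Nondeg) (h : KStr P φ τ)
    {Y : Submodule F V} (hY : ∀ k, Inv (φ k) Y) (hN : ND P Y)
    (hd : finrank F K < finrank F Y) : ∃ u ∈ Y, u ≠ 0 ∧ ∀ k, P.B u (φ k u) = 0 := by
  have : FiniteDimensional F K := Module.Finite.of_finite
  have h0 : Y ≠ ⊥ := by
    rintro rfl
    simp at hd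
  obtain ⟨v, hv, k, hk⟩ := h.exists_ne hY hN h0
  have hv0 : v ≠ 0 := by rintro rfl; simp at hk
  have hA := h.nd_orb hk
  have hle := orb_le hY hv
  have h1 := hN.finrank_inf_perp hP hle
  rw [finrank_orb φ hv0] at h1
  obtain ⟨w, hw, k', hk'⟩ := h.exists_ne (Y := Y ⊓ P.perp (orb φ v))
    (fun k => (hY k).inf (h.inv_perp (inv_orb φ v) k)) (hA.inf_perp hP hN hle)
    (fun h2 => by rw [h2, finrank_bot] at h1; omega)
  have hl : (P.B v).comp (orbMap φ v) ≠ 0 := fun h2 => hk (LinearMap.congr_fun h2 k)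
  obtain ⟨c, hc⟩ := exists_mul_eq_of_functional hl ((P.B w).comp (orbMap φ w))
  simp only [LinearMap.comp_apply, orbMap_apply] at hc
  have hτ : τ c = c := by
    refine eq_of_functional hl fun a => ?_
    simp only [LinearMap.comp_apply, orbMap_apply]
    rw [← hc, ← h.ττ a, h.B_τ, hc, ← h.B_τ, map_mul τ]
  obtain ⟨μ, hμ⟩ := norm_surj_of_finite h.ne h.ττ (-c) (by rw [map_neg, hτ])
  have hperp : ∀ a b, P.B (φ a v) (φ b w) = 0 := fun a b =>
    h.inv_perp (inv_orb φ v) b w hw.2 _ ⟨a, rfl⟩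
  refine ⟨φ μ v + w, Y.add_mem (hY μ v hv) hw.1, fun h2 => hk' ?_, fun a => ?_⟩
  · have : w = φ (-μ) v := by
      rw [map_neg, LinearMap.neg_apply]; exact eq_neg_of_add_eq_zero_right h2
    conv_lhs => rw [this]
    rw [← this]
    conv_lhs => congr; rw [this]
    exact hperp _ _
  · have h3 : P.B w (φ a (φ μ v)) = 0 := by
      rw [P.B_eq_zero_comm, act_mul]
      simpa using hperp (a * μ) 1
    rw [map_add (φ a), P.B_add_left, P.B_add_right, P.B_add_right, hperp, h3, hc, h.adj, act_mul,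
      act_mul, add_zero, zero_add, ← P.B_add_right, ← LinearMap.add_apply, ← map_add,
      show τ μ * a * μ + c * a = 0 by linear_combination a * hμ]
    simp

end KStr

/-- The irreducible polynomials whose isotypic components carry a Hermitian structure. -/
def Good (σ : F →+* F) (f : F[X]) : Prop := σ ≠ RingHom.id F ∨ (f ≠ X - 1 ∧ f ≠ X + 1)

variable {P : PQ σ V}

theorem exists_kStr {T : End F V} (hT : Isom P T) {f : F[X]} [hf : Fact (Irreducible f)]
    (hm : f.Monic) (hX : f ≠ X) (hs : tilde σ f = f) (hg : Good σ f) (h : aeval T f = 0) :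
    ∃ τ, KStr P (rootAct h) τ := by
  have h0 := coeff_zero_ne_zero_of_ne_X hf.out hm hX
  have hρ : AdjoinRoot.root f ≠ 0 := by
    intro h1
    have h2 : aeval (AdjoinRoot.root f) f = 0 := by rw [AdjoinRoot.aeval_eq, AdjoinRoot.mk_self]
    rw [h1, ← coeff_zero_eq_aeval_zero'] at h2
    exact h0 ((algebraMap F _).injective (by rw [h2, map_zero]))
  have h1 : f.eval₂ ((AdjoinRoot.of f).comp σ) (AdjoinRoot.root f)⁻¹ = 0 := by
    have h2 := aeval_reflect (A := (AdjoinRoot.root f)⁻¹) (B := AdjoinRoot.root f)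
      (mul_inv_cancel₀ hρ) (f := f.map σ) le_rfl
    have h3 : aeval (AdjoinRoot.root f) (tilde σ f) = 0 := by
      rw [hs, AdjoinRoot.aeval_eq, AdjoinRoot.mk_self]
    rw [tilde, map_mul, aeval_C, reverse, h2, mul_eq_zero, mul_eq_zero] at h3
    rcases h3 with h3 | h3 | h3
    · exact absurd h3 ((_root_.map_ne_zero _).2 (inv_ne_zero ((_root_.map_ne_zero σ).2 h0)))
    · exact absurd h3 (pow_ne_zero _ hρ)
    · rwa [aeval_def, eval₂_map] at h3
  let τ := AdjoinRoot.lift _ _ h1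
  have hτ1 : ∀ c, τ (AdjoinRoot.of f c) = AdjoinRoot.of f (σ c) := fun c => AdjoinRoot.lift_of h1
  have hτ2 : τ (AdjoinRoot.root f) = (AdjoinRoot.root f)⁻¹ := AdjoinRoot.lift_root h1
  refine ⟨τ, fun k => ?_, fun h2 => ?_, fun k => ?_⟩
  · have : τ.comp τ = RingHom.id _ := by
      refine AdjoinRoot.ringHom_ext (RingHom.ext fun c => ?_) ?_
      · simp [hτ1, P.σσ]
      · simp [hτ2]
    exact RingHom.congr_fun this k
  · rcases hg with hg | hg
    · apply hg
      ext c
      have := hτ1 c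
      rw [h2] at this
      exact ((AdjoinRoot.of f).injective this).symm
    · rw [h2, RingHom.id_apply] at hτ2
      have h3 : AdjoinRoot.root f * AdjoinRoot.root f = 1 := by
        nth_rewrite 2 [hτ2]; exact mul_inv_cancel₀ hρ
      rcases mul_self_eq_one_iff.1 h3 with h4 | h4
      · have : f ∣ X - 1 := by
          rw [← AdjoinRoot.mk_eq_zero, map_sub, AdjoinRoot.mk_X, h4, map_one, sub_self]
        exact hg.1 (eq_of_monic_of_associated hm (monic_X_sub_C 1)
          ((hf.out.associated_of_dvd (irreducible_X_sub_C 1) this)))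
      · have h5 : (X + 1 : F[X]) = X - C (-1) := by simp
        have : f ∣ X - C (-1) := by
          rw [← h5, ← AdjoinRoot.mk_eq_zero, map_add, AdjoinRoot.mk_X, h4, map_one, neg_add_cancel]
        exact hg.2 (h5 ▸ eq_of_monic_of_associated hm (monic_X_sub_C (-1))
          ((hf.out.associated_of_dvd (irreducible_X_sub_C (-1)) this)))
  · induction k using AdjoinRoot.induction_on with
    | ih a =>
    induction a using Polynomial.induction_on with
    | C c =>
      intro x y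
      have e1 : ∀ c : F, rootAct h (AdjoinRoot.of f c) = algebraMap F _ c := fun c =>
        (rootAct h).commutes c
      rw [AdjoinRoot.mk_C, hτ1, e1, e1, Module.algebraMap_end_apply, Module.algebraMap_end_apply,
        P.B_smul_left, P.B_smul_right]
    | add p q hp hq =>
      intro x y
      simp only [map_add, LinearMap.add_apply, hp, hq]
    | monomial n c ih =>
      intro x y
      have e1 : ∀ y, T (rootAct h (AdjoinRoot.root f)⁻¹ y) = y := fun y => by
        have := act_mul (rootAct h) (AdjoinRoot.root f) (AdjoinRoot.root f)⁻¹ y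
        rwa [rootAct_root, mul_inv_cancel₀ hρ, map_one] at this
      rw [pow_succ, ← mul_assoc, map_mul (AdjoinRoot.mk f), AdjoinRoot.mk_X, map_mul τ, hτ2,
        ← act_mul, ih, rootAct_root, mul_comm (τ _), ← act_mul, ← hT.B_eq x, e1]

variable [FiniteDimensional F V]

theorem nd_inf_ker {T : End F V} (hT : Isom P T) {a : F[X]} (ha : Squarefree a)
    (hTa : aeval T a = 0) {U : Submodule F V} (hU : ND P U) (hI : Inv T U) {f : F[X]} (hfa : f ∣ a)
    (hs : tilde σ f = f) : ND P (U ⊓ LinearMap.ker (aeval T f)) := by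
  obtain ⟨g, rfl⟩ := hfa
  obtain ⟨u, v, huv⟩ := (IsRelPrime.of_squarefree_mul ha).isCoprime
  rw [nd_iff]
  rintro x ⟨hx, hx'⟩ hy
  refine nd_iff.1 hU x hx fun y hy' => ?_
  have h1 : y = aeval T f (aeval T u y) + aeval T (v * g) y := by
    rw [← End.mul_apply, ← map_mul, ← LinearMap.add_apply, ← map_add, mul_comm f, huv, map_one]
    rfl
  rw [h1, P.B_add_right, hy _ ⟨hI.aeval _ y hy', ?_⟩, add_zero]
  · conv_lhs => rw [← hs]
    exact B_eq_zero_of_ker hT hx' _
  · rw [SetLike.mem_coe, LinearMap.mem_ker, ← End.mul_apply, ← map_mul,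
      show f * (v * g) = v * (f * g) by ring, map_mul, hTa, mul_zero]
    rfl

theorem le_ker_of_edOn {T : End F V} {A : Submodule F V} (hA : Inv T A) {f : F[X]}
    (h : ∀ x ∈ edOn T A, x = (f, 1)) : A ≤ LinearMap.ker (aeval T f) :=
  (aeval_eq_zero_on_iff hA f).2 fun x hx => by rw [h x hx, pow_one]

theorem edOn_eq_singleton {T : End F V} {A : Submodule F V} (hA : Inv T A) {f : F[X]}
    (hf : Irreducible f) (hm : f.Monic) (h : A ≤ LinearMap.ker (aeval T f))
    (hd : finrank F A = f.natDegree) : edOn T A = {(f, 1)} := by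
  have h1 := eq_replicate_of_irreducible (edOn_valid T A) hf hm ((aeval_eq_zero_on_iff hA f).1 h)
  have h2 := hA.finrank_eq
  rw [h1, mdeg_replicate, hd, mul_one] at h2
  have h3 : Multiset.card (edOn T A) = 1 :=
    (Nat.mul_eq_right (natDegree_pos_iff_degree_pos.2 (degree_pos_of_irreducible hf)).ne').1 h2.symm
  rw [h1, h3]; rfl

variable [Finite F]

theorem exists_selfdual_aux (hP : P.Nondeg) {T : End F V} (hT : Isom P T) {a : F[X]}
    (ha : Squarefree a) (hTa : aeval T a = 0) {U : Submodule F V} (hU : ND P U) (hI : Inv T U)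
    {f : F[X]} (hf : (f, 1) ∈ edOn T U) (hs : tilde σ f = f) (hg : Good σ f) :
    (∃ A, A ≤ U ∧ ND P A ∧ Inv T A ∧ edOn T A = {(f, 1)}) ∧
    ({(f, 1)} + {(f, 1)} ≤ edOn T U → ∃ A, A ≤ U ∧ A ≤ P.perp A ∧ Inv T A ∧ edOn T A = {(f, 1)}) := by
  obtain ⟨hi, hm, -⟩ := edOn_valid T U _ hf
  have : Fact (Irreducible f) := ⟨hi⟩
  have hX : f ≠ X := ne_X_of_mem_edOn (hT.injective hP) hf
  have hfa : f ∣ a := by simpa using dvd_of_mem_edOn hTa hf
  let M := U ⊓ LinearMap.ker (aeval T f)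
  have hM : ND P M := nd_inf_ker hT ha hTa hU hI hfa hs
  have hMI : Inv T M := hI.inf (inv_ker_aeval T f)
  have h0 : aeval (T.restrict hMI) f = 0 := by
    ext v
    rw [aeval_restrict]; exact v.2.2
  obtain ⟨τ, hK⟩ := exists_kStr (isIso_restrict hT hMI) hm hX hs hg h0
  have hfin : FiniteDimensional F (AdjoinRoot f) := finite_adjoinRoot hi.ne_zero
  have : Finite (AdjoinRoot f) := Module.finite_of_finite F
  have hle : ∀ s, s ≤ edOn T U → (∀ x ∈ s, x = (f, 1)) → mdeg s ≤ finrank F M := by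
    intro s h1 h2
    obtain ⟨A, B, a1, -, -, a2, a3, -⟩ := exists_split_of_le hI h1
    rw [← a3, ← a1.finrank_eq]
    exact Submodule.finrank_mono (le_inf (a2 ▸ le_sup_left) (le_ker_of_edOn a1 (a3 ▸ h2)))
  have hdeg : 0 < f.natDegree := natDegree_pos_iff_degree_pos.2 (degree_pos_of_irreducible hi)
  have key : ∀ v : M, v ≠ 0 → (orb (rootAct h0) v).map M.subtype ≤ U ∧
      Inv T ((orb (rootAct h0) v).map M.subtype) ∧
      edOn T ((orb (rootAct h0) v).map M.subtype) = {(f, 1)} := by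
    intro v hv
    have h1 : Inv (T.restrict hMI) (orb (rootAct h0) v) := by
      have := inv_orb (rootAct h0) v (AdjoinRoot.root f)
      rwa [rootAct_root] at this
    have h2 : Inv T ((orb (rootAct h0) v).map M.subtype) := h1.map _ fun _ => rfl
    refine ⟨(M.map_subtype_le _).trans inf_le_left, h2,
      edOn_eq_singleton h2 hi hm ((M.map_subtype_le _).trans inf_le_right) ?_⟩
    rw [Submodule.finrank_map_subtype_eq, finrank_orb _ hv, finrank_adjoinRoot]
  constructor
  · have h1 := hle {(f, 1)} (Multiset.singleton_le.2 hf) (by simp)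
    rw [mdeg_singleton, mul_one] at h1
    obtain ⟨v, -, k, hk⟩ := hK.exists_ne (Y := ⊤) (fun k => inv_top _) (nd_top hM.nondeg) (by
      intro h2
      have := finrank_top F M
      rw [h2, finrank_bot] at this
      dsimp only at h1
      omega)
    have hv0 : v ≠ 0 := by rintro rfl; simp at hk
    obtain ⟨k1, k2, k3⟩ := key v hv0
    exact ⟨_, k1, nd_map_subtype (hK.nd_orb hk), k2, k3⟩
  · intro h2
    have h1 := hle _ h2 (by simp)
    rw [mdeg_add, mdeg_singleton, mul_one] at h1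
    obtain ⟨v, -, hv0, hk⟩ := hK.exists_isotropic hM.nondeg (Y := ⊤) (fun k => inv_top _)
      (nd_top hM.nondeg) (by
        rw [finrank_top, finrank_adjoinRoot]
        dsimp only at h1 ⊢
        omega)
    obtain ⟨k1, k2, k3⟩ := key v hv0
    refine ⟨_, k1, ?_, k2, k3⟩
    rintro _ ⟨x, hx, rfl⟩ _ ⟨y, hy, rfl⟩
    exact hK.orb_le_perp hk hx y hy

theorem exists_ts_block (hP : P.Nondeg) {T : End F V} (hT : Isom P T) {a : F[X]}
    (ha : Squarefree a) (hTa : aeval T a = 0) {U : Submodule F V} (hU : ND P U) (hI : Inv T U)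
    {f : F[X]} (hf : {(f, 1)} + {(tilde σ f, 1)} ≤ edOn T U) (hg : tilde σ f = f → Good σ f) :
    ∃ A, A ≤ U ∧ P.TS A ∧ Inv T A ∧ edOn T A = {(f, 1)} := by
  have hf1 : (f, 1) ∈ edOn T U := Multiset.mem_of_le hf (by simp)
  have hf2 : (tilde σ f, 1) ∈ edOn T U := Multiset.mem_of_le hf (by simp)
  obtain ⟨hi, hm, -⟩ := edOn_valid T U _ hf1
  obtain ⟨hi', hm', -⟩ := edOn_valid T U _ hf2
  have hts : ∀ A, A ≤ P.perp A → Inv T A → edOn T A = {(f, 1)} → P.TS A := by
    intro A h1 h2 h3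
    refine ts_of_le_perp hT h1 h2 ?_
    by_cases hσ : σ = RingHom.id F
    swap
    · exact Or.inl hσ
    right
    have hne : f ≠ X - 1 := by
      rintro rfl
      rcases hg tilde_X_sub_one with h | h
      exacts [h hσ, h.1 rfl]
    intro x hx hTx
    have hc : IsCoprime f (X - 1) := (hi.coprime_iff_not_dvd).2 fun h4 =>
      hne (eq_of_monic_of_associated hm (monic_X_sub_C 1)
        (hi.associated_of_dvd (irreducible_X_sub_C 1) h4))
    obtain ⟨u, v, huv⟩ := hc
    have h4 : aeval T f x = 0 := le_ker_of_edOn h2 (by rw [h3]; simp) hx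
    have h5 : aeval T (X - 1 : F[X]) x = 0 := by simp [hTx]
    have h6 := congrArg (fun g => aeval T g x) huv
    simp only [map_add, map_mul, LinearMap.add_apply, End.mul_apply, h4, h5, map_zero, map_one,
      End.one_apply, add_zero] at h6
    exact h6.symm
  by_cases hs : tilde σ f = f
  · obtain ⟨A, h1, h2, h3, h4⟩ := (exists_selfdual_aux hP hT ha hTa hU hI hf1 hs (hg hs)).2
      (by rwa [hs] at hf)
    exact ⟨A, h1, hts A h2 h3 h4, h3, h4⟩
  · obtain ⟨A, B, a1, -, -, a2, a3, -⟩ := exists_split_of_le hI (Multiset.singleton_le.2 hf1)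
    refine ⟨A, a2 ▸ le_sup_left, hts A ?_ a1 a3, a1, a3⟩
    have hc : IsCoprime f (tilde σ f) := (hi.coprime_iff_not_dvd).2 fun h4 =>
      hs (eq_of_monic_of_associated hm hm' (hi.associated_of_dvd hi' h4)).symm
    obtain ⟨u, v, huv⟩ := hc
    have hk := le_ker_of_edOn a1 (f := f) (by rw [a3]; simp)
    intro x hx y hy
    have h4 : aeval T f x = 0 := hk hx
    have h6 := congrArg (fun g => aeval T g x) huv
    rw [mul_comm v] at h6
    simp only [map_add, map_mul, LinearMap.add_apply, End.mul_apply, h4, map_zero, map_one,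
      End.one_apply, zero_add] at h6
    rw [← h6]
    exact B_eq_zero_of_ker hT (hk hy) _

/-- Existence of invariant totally singular subspaces with prescribed elementary divisors. -/
theorem exists_ts_edOn (hP : P.Nondeg) {T : End F V} (hT : Isom P T) {a : F[X]}
    (ha : Squarefree a) (hTa : aeval T a = 0) (t : Multiset (F[X] × ℕ))
    (hg : ∀ x ∈ t, tilde σ x.1 = x.1 → Good σ x.1) {U : Submodule F V} (hU : ND P U) (hI : Inv T U)
    (ht : t + dl σ t ≤ edOn T U) : ∃ W, W ≤ U ∧ P.TS W ∧ Inv T W ∧ edOn T W = t := by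
  induction t using Multiset.induction_on generalizing U with
  | empty => exact ⟨⊥, bot_le, P.ts_bot, inv_bot T, edOn_bot T⟩
  | cons x t ih =>
    obtain ⟨f, e⟩ := x
    have he : e = 1 := exp_eq_one_of_mem_edOn ha hTa (x := (f, e)) (Multiset.mem_of_le ht (by simp))
    subst he
    have h1 : (f, 1) ::ₘ t + dl σ ((f, 1) ::ₘ t) =
        ({(f, 1)} + {(tilde σ f, 1)}) + (t + dl σ t) := by
      rw [dl_cons, ← Multiset.singleton_add, ← Multiset.singleton_add]; abel
    rw [h1] at ht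
    obtain ⟨A, a1, a2, a3, a4⟩ := exists_ts_block hP hT ha hTa hU hI
      ((Multiset.le_add_right _ _).trans ht) (hg (f, 1) (Multiset.mem_cons_self _ _))
    obtain ⟨H, b1, b2, b3, b4, -, b6⟩ := ts_split hP hT ha hTa hU hI a2.2 a3 a1
    rw [b1.edOn_eq hP hT b2 hI b4, b6, a4, dl_singleton] at ht
    obtain ⟨W, c1, c2, c3, c4⟩ := ih (fun x hx => hg x (Multiset.mem_cons_of_mem hx))
      (b1.inf_perp hP hU b4) (hI.inf (b2.perp hP hT)) (le_of_add_le_add_left ht)
    have hW : W ≤ P.perp H := c1.trans inf_le_right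
    refine ⟨A ⊔ W, sup_le a1 (c1.trans inf_le_left), a2.sup c2 (hW.trans (P.perp_anti b3)),
      a3.sup c3, ?_⟩
    rw [edOn_sup a3 c3 ((b1.disjoint hW).mono_left b3), a4, c4, Multiset.singleton_add]

theorem ts_edOn_le (hP : P.Nondeg) {T : End F V} (hT : Isom P T) {a : F[X]}
    (ha : Squarefree a) (hTa : aeval T a = 0) {U W : Submodule F V} (hU : ND P U) (hI : Inv T U)
    (hW : W ≤ P.perp W) (hWI : Inv T W) (hle : W ≤ U) :
    edOn T W + dl σ (edOn T W) ≤ edOn T U := by
  obtain ⟨H, b1, b2, -, b4, -, b6⟩ := ts_split hP hT ha hTa hU hI hW hWI hle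
  rw [← b6]; exact b1.edOn_le hP hT b2 hI b4

/-- Extraction of one nondegenerate invariant block. -/
theorem exists_nd_block (hP : P.Nondeg) {T : End F V} (hT : Isom P T) {a : F[X]}
    (ha : Squarefree a) (hTa : aeval T a = 0) {U : Submodule F V} (hU : ND P U) (hI : Inv T U)
    {f : F[X]} (hf : (f, 1) ∈ edOn T U) (hg : tilde σ f = f → Good σ f) :
    ∃ A, A ≤ U ∧ ND P A ∧ Inv T A ∧ ((tilde σ f = f ∧ edOn T A = {(f, 1)}) ∨
      (tilde σ f ≠ f ∧ edOn T A = {(f, 1)} + {(tilde σ f, 1)} ∧ Plus P A)) := by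
  classical
  by_cases hs : tilde σ f = f
  · obtain ⟨A, h1, h2, h3, h4⟩ := (exists_selfdual_aux hP hT ha hTa hU hI hf hs (hg hs)).1
    exact ⟨A, h1, h2, h3, Or.inl ⟨hs, h4⟩⟩
  · have hf2 : (tilde σ f, 1) ∈ edOn T U := by
      rw [← hU.dl_edOn hP hT hI]
      exact Multiset.mem_map.2 ⟨(f, 1), hf, rfl⟩
    have h1 : {(f, 1)} + {(tilde σ f, 1)} ≤ edOn T U := by
      rw [Multiset.singleton_add, ← Multiset.cons_erase hf]
      refine Multiset.cons_le_cons _ (Multiset.singleton_le.2 ?_)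
      exact (Multiset.mem_erase_of_ne fun h => hs (Prod.ext_iff.1 h).1).2 hf2
    obtain ⟨A, a1, a2, a3, a4⟩ := exists_ts_block hP hT ha hTa hU hI h1 hg
    obtain ⟨H, b1, b2, b3, b4, b5, b6⟩ := ts_split hP hT ha hTa hU hI a2.2 a3 a1
    exact ⟨H, b4, b1, b2, Or.inr ⟨hs, by rw [b6, a4, dl_singleton], A, b3, b5.symm, a2⟩⟩

end CfsgLib.Elusive
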