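import Mathlib
import Cfsg.Agent.Lib.Elusive.IsoK

/-!
Isometries of prime order different from the characteristic: invariant totally singular and
nondegenerate subspaces.
-/

set_option autoImplicit false

namespace CfsgLib.Elusive

open Polynomial Module CfsgLib.MatConj CfsgLib.Forms

section Arith

theorem pow_eq_neg_one_iff {r : ℕ} [hr : Fact r.Prime] (h2 : r ≠ 2) (u : ZMod r) (k : ℕ) :
    u ^ k = -1 ↔ orderOf u ∣ 2 * k ∧ ¬ orderOf u ∣ k := by
  have : Fact (2 < r) := ⟨two_lt_of_ne_two hr.out h2⟩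
  rw [orderOf_dvd_iff_pow_eq_one, orderOf_dvd_iff_pow_eq_one, mul_comm, pow_mul]
  constructor
  · intro h
    rw [h]
    exact ⟨by simp, ZMod.neg_one_ne_one⟩
  · rintro ⟨h1, h3⟩
    rw [sq] at h1
    exact (mul_self_eq_one_iff.1 h1).resolve_left h3

theorem dvd_two_mul_not_dvd_iff {i k : ℕ} (hi : 0 < i) :
    (i ∣ 2 * k ∧ ¬ i ∣ k) ↔ Even i ∧ i ∣ 2 * k ∧ Odd (2 * k / i) := by
  constructor
  · rintro ⟨⟨a, ha⟩, h2⟩
    have h3 : Odd a := by
      rw [← Nat.not_even_iff_odd]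
      rintro ⟨b, rfl⟩
      exact h2 ⟨b, by nlinarith⟩
    refine ⟨?_, ⟨a, ha⟩, by rwa [ha, Nat.mul_div_cancel_left _ hi]⟩
    have : Even (i * a) := ha ▸ even_two_mul k
    exact (Nat.even_mul.1 this).resolve_right (Nat.not_even_iff_odd.2 h3)
  · rintro ⟨-, h1, h2⟩
    refine ⟨h1, ?_⟩
    rintro ⟨b, rfl⟩
    rw [mul_left_comm, Nat.mul_div_cancel_left _ hi] at h2
    exact (Nat.not_even_iff_odd.2 h2) (even_two_mul b)

theorem exists_pow_eq_neg_one_iff {r : ℕ} [hr : Fact r.Prime] (h2 : r ≠ 2) {u : ZMod r}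
    (hu : 0 < orderOf u) : (∃ k, u ^ k = -1) ↔ Even (orderOf u) := by
  simp only [pow_eq_neg_one_iff h2, dvd_two_mul_not_dvd_iff hu]
  refine ⟨fun ⟨_, h, _⟩ => h, fun h => ?_⟩
  obtain ⟨a, ha⟩ := h
  refine ⟨a, ⟨a, ha⟩, ?_⟩
  rw [two_mul, ← ha, Nat.div_self hu]
  exact ⟨dvd_rfl, odd_one⟩

theorem exists_odd_pow_eq_neg_one_iff {r : ℕ} [hr : Fact r.Prime] (h2 : r ≠ 2) {u : ZMod r}
    (hu : 0 < orderOf u) : (∃ k, u ^ (2 * k + 1) = -1) ↔ orderOf u % 4 = 2 := by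
  simp only [pow_eq_neg_one_iff h2, dvd_two_mul_not_dvd_iff hu]
  constructor
  · rintro ⟨k, ⟨a, ha⟩, ⟨b, hb⟩, -⟩
    have h1 : 2 * k + 1 = a * b := by rw [ha] at hb; nlinarith
    have h3 : Odd a := (Nat.odd_mul.1 (h1 ▸ odd_two_mul_add_one k)).1
    obtain ⟨c, rfl⟩ := h3
    omega
  · intro h
    refine ⟨orderOf u / 4, ⟨orderOf u / 2, by omega⟩, ?_⟩
    rw [show 2 * (2 * (orderOf u / 4) + 1) = orderOf u by omega, Nat.div_self hu]
    exact ⟨dvd_rfl, odd_one⟩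

end Arith

section Mult

variable {α : Type*}

theorem exists_eq_add_map (g : α → α) (t : Multiset α) (h1 : t.map g = t)
    (h2 : ∀ a ∈ t, g a ≠ a) (h3 : ∀ a ∈ t, g (g a) = a) : ∃ t₀, t = t₀ + t₀.map g := by
  classical
  induction t using Multiset.strongInductionOn with
  | _ t ih =>
  rcases t.empty_or_exists_mem with rfl | ⟨a, ha⟩
  · exact ⟨0, rfl⟩
  obtain ⟨t₁, rfl⟩ := Multiset.exists_cons_of_mem ha
  have h4 : g a ∈ t₁ := by
    have : g a ∈ a ::ₘ t₁ := h1 ▸ Multiset.mem_map_of_mem g ha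
    exact (Multiset.mem_cons.1 this).resolve_left (h2 a ha)
  obtain ⟨t₂, rfl⟩ := Multiset.exists_cons_of_mem h4
  have h5 : t₂.map g = t₂ := by
    rw [Multiset.map_cons, Multiset.map_cons, h3 a ha, Multiset.cons_swap] at h1
    exact (Multiset.cons_inj_right _).1 ((Multiset.cons_inj_right _).1 h1)
  obtain ⟨t₀, h6⟩ := ih t₂ ((Multiset.lt_cons_self _ _).trans (Multiset.lt_cons_self _ _)) h5
    (fun b hb => h2 b (by simp [hb])) (fun b hb => h3 b (by simp [hb]))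
  refine ⟨a ::ₘ t₀, ?_⟩
  rw [Multiset.map_cons, Multiset.cons_add, Multiset.add_cons, ← h6]

theorem exists_le_card_eq {t : Multiset α} {j : ℕ} (h : j ≤ Multiset.card t) :
    ∃ t' ≤ t, Multiset.card t' = j := by
  induction t using Quotient.inductionOn with
  | _ l => exact ⟨(l.take j : List α), (List.take_sublist j l).subperm, by simpa using h⟩

theorem exists_double_le (S : Finset α) (j : ℕ) : ∀ t : Multiset α, (∀ a ∈ t, a ∈ S) →
    (j = 0 ∨ 2 * j + S.card ≤ Multiset.card t + 1) → ∃ t', t' + t' ≤ t ∧ Multiset.card t' = j := by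
  classical
  induction j with
  | zero => exact fun t _ _ => ⟨0, by simp, rfl⟩
  | succ j ih =>
    intro t h1 h2
    have h3 : ¬ t.Nodup := fun h => by
      have := Finset.card_le_card (s := ⟨t, h⟩) (t := S) h1
      simp only [Finset.card_mk] at this
      omega
    rw [Multiset.nodup_iff_ne_cons_cons] at h3
    push Not at h3
    obtain ⟨a, t₁, rfl⟩ := h3
    obtain ⟨t', h4, h5⟩ := ih t₁ (fun b hb => h1 b (by simp [hb])) (by
      simp only [Multiset.card_cons] at h2; omega)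
    refine ⟨a ::ₘ t', ?_, by simp [h5]⟩
    rw [Multiset.cons_add, Multiset.add_cons]
    exact Multiset.cons_le_cons _ (Multiset.cons_le_cons _ h4)

theorem exists_bad_double (S : Finset α) (hS : S.Nonempty) (k : ℕ) : ∃ t : Multiset α,
    (∀ a ∈ t, a ∈ S) ∧ Multiset.card t = k ∧
      ∀ t', t' + t' ≤ t → Multiset.card t' = 0 ∨ 2 * Multiset.card t' + S.card ≤ k + 1 := by
  classical
  rcases le_or_gt k S.card with h | h
  · obtain ⟨A, h1, h2⟩ := Finset.exists_subset_card_eq h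
    refine ⟨A.val, h1, h2, fun t' ht => Or.inl ?_⟩
    rw [Multiset.card_eq_zero, Multiset.eq_zero_iff_forall_notMem]
    intro a ha
    have h3 := Multiset.count_le_of_le a ht
    have h4 := Multiset.nodup_iff_count_le_one.1 A.nodup a
    have h5 := Multiset.count_pos.2 ha
    rw [Multiset.count_add] at h3
    omega
  · obtain ⟨b, hb⟩ := hS
    refine ⟨S.val + Multiset.replicate (k - S.card) b, fun a ha => ?_, by simp; omega,
      fun t' ht => Or.inr ?_⟩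
    · rcases Multiset.mem_add.1 ha with h1 | h1
      · exact h1
      · rw [Multiset.eq_of_mem_replicate h1]; exact hb
    · have h1 : ∀ a, 2 * t'.count a ≤ 1 + if a = b then k - S.card else 0 := by
        intro a
        have h3 := Multiset.count_le_of_le a ht
        have h4 := Multiset.nodup_iff_count_le_one.1 S.nodup a
        rw [Multiset.count_add, Multiset.count_add, Multiset.count_replicate] at h3
        split_ifs at h3 ⊢ with h5 h6 h6
        · omega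
        · exact absurd h5.symm h6
        · exact absurd h6.symm h5
        · omega
      have h2 : t' = Multiset.replicate (Multiset.card t') b := by
        rw [Multiset.eq_replicate_card]
        intro a ha
        by_contra h5
        have := h1 a
        have h6 := Multiset.count_pos.2 ha
        rw [if_neg h5] at this
        omega
      have h3 := h1 b
      rw [if_pos rfl, h2, Multiset.count_replicate_self] at h3
      omega

end Mult

variable {F : Type*} [Field F] {σ : F →+* F} {V : Type*} [AddCommGroup V] [Module F V]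

section SD

variable [Fintype F] {p r : ℕ} [hp : Fact p.Prime] [CharP F p] [hr : Fact r.Prime]

theorem ne_X_of_mem_cyc {f : F[X]} (hf : f ∈ cyc F r) : f ≠ X := by
  rintro rfl
  have := dvd_of_mem_cyc hf
  rw [X_dvd_iff] at this
  simp [hr.out.ne_zero.symm, coeff_X_pow] at this

theorem coeff_ne_of_mem_cyc {f : F[X]} (hf : f ∈ cyc F r) : f.coeff 0 ≠ 0 :=
  coeff_zero_ne_zero_of_ne_X (mem_cyc.1 hf).1 (mem_cyc.1 hf).2.1 (ne_X_of_mem_cyc hf)

theorem tilde_X_pow_sub_C {k : ℕ} (hk : k ≠ 0) {z : F} (hz : σ z * z = 1) :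
    tilde σ (X ^ k - C z) = X ^ k - C z := by
  have h1 : (X ^ k - C z : F[X]).coeff 0 = -z := by simp [coeff_X_pow, hk.symm]
  have h2 : (σ (-z))⁻¹ = -z := by
    rw [map_neg]; exact inv_eq_of_mul_eq_one_right (by rw [neg_mul_neg, hz])
  rw [tilde, h1, h2, Polynomial.map_sub, Polynomial.map_pow, map_X, map_C, reverse,
    natDegree_X_pow_sub_C, reflect_sub, reflect_C, ← one_mul (X ^ k), ← C_1, reflect_C_mul_X_pow]
  rw [revAt_le le_rfl, Nat.sub_self, pow_zero, mul_sub, ← mul_assoc, ← mul_assoc, ← C_mul, ← C_mul,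
    neg_mul, neg_mul, mul_comm z (σ z), hz]
  simp only [mul_one, map_neg, map_one, one_mul]
  ring

theorem tilde_mem_cyc (hσ : ∀ x, σ (σ x) = x) {f : F[X]} (hf : f ∈ cyc F r) (hrp : r ≠ p) :
    tilde σ f ∈ cyc F r := by
  obtain ⟨h1, h2, -⟩ := mem_cyc.1 hf
  have h0 := coeff_ne_of_mem_cyc hf
  have h3 : tilde σ f ∣ X ^ r - 1 := by
    have := tilde_dvd σ (dvd_of_mem_cyc hf)
    rwa [← C_1, tilde_X_pow_sub_C hr.out.ne_zero (by simp), C_1] at this
  refine mem_cyc.2 ⟨irreducible_tilde hσ h1 h2 h0, monic_tilde σ h0, ?_⟩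
  refine (eq_or_dvd_cyclotomic (irreducible_tilde hσ h1 h2 h0) (monic_tilde σ h0) h3).resolve_left
    fun h => ne_of_mem_cyc hrp hf ?_
  rw [← tilde_tilde hσ h2 h0, h, tilde_X_sub_one]

theorem tilde_eq_iff (hrp : r ≠ p) {a : ℕ} (hσ : ∀ x, σ x = x ^ p ^ a) {f : F[X]}
    (hf : f ∈ cyc F r) :
    tilde σ f = f ↔ ∃ j, (Fintype.card F : ZMod r) ^ j * (p ^ a : ℕ) = -1 := by
  obtain ⟨h1, h2, -⟩ := mem_cyc.1 hf
  have h0 := coeff_ne_of_mem_cyc hf
  have : Fact (Irreducible f) := ⟨h1⟩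
  have hfin : FiniteDimensional F (AdjoinRoot f) := finite_adjoinRoot h1.ne_zero
  have : Finite (AdjoinRoot f) := Module.finite_of_finite F
  have : CharP (AdjoinRoot f) p := charP_of_injective_algebraMap (algebraMap F _).injective p
  set ρ := AdjoinRoot.root f with hρ
  have hρr : ρ ^ r = 1 := by
    have := AdjoinRoot.mk_eq_zero.2 (dvd_of_mem_cyc hf)
    rwa [map_sub, map_pow, AdjoinRoot.mk_X, map_one, sub_eq_zero] at this
  have hρ1 : ρ ≠ 1 := fun h => by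
    have : f ∣ X - 1 := by
      rw [← AdjoinRoot.mk_eq_zero, map_sub, AdjoinRoot.mk_X, ← hρ, h, map_one, sub_self]
    exact ne_of_mem_cyc hrp hf (eq_of_monic_of_associated h2 (monic_X_sub_C 1)
      ((h1.associated_of_dvd (irreducible_X_sub_C 1) this)))
  have hord : orderOf ρ = r := orderOf_eq_prime hρr hρ1
  have hρ0 : ρ ≠ 0 := fun h => by
    rw [h, zero_pow hr.out.ne_zero] at hρr
    exact zero_ne_one hρr
  obtain ⟨y, hy⟩ := Finite.surjective_of_injective (iterateFrobenius (AdjoinRoot f) p a).injective ρ⁻¹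
  have e1 : tilde σ f = f ↔ aeval ρ (tilde σ f) = 0 := by
    refine ⟨fun h => by rw [h, AdjoinRoot.aeval_eq, AdjoinRoot.mk_self], fun h => ?_⟩
    rw [AdjoinRoot.aeval_eq, AdjoinRoot.mk_eq_zero] at h
    exact eq_of_monic_of_dvd_of_natDegree_le h2 (monic_tilde σ h0) h (natDegree_tilde_le σ f)
  have e2 : aeval ρ⁻¹ (f.map σ) = iterateFrobenius (AdjoinRoot f) p a (aeval y f) := by
    rw [← hy, aeval_def, aeval_def, eval₂_map, hom_eval₂]
    congr 1
    ext c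
    simp [hσ, iterateFrobenius_def]
  have e3 : aeval ρ (tilde σ f) = 0 ↔ aeval y f = 0 := by
    rw [tilde, map_mul, aeval_C, reverse, aeval_reflect (mul_inv_cancel₀ hρ0) le_rfl, e2,
      mul_eq_zero, mul_eq_zero, _root_.map_eq_zero, _root_.map_eq_zero]
    simp [h0, hρ0]
  have e4 : aeval y f = 0 ↔ ∃ j, y = ρ ^ Fintype.card F ^ j := by
    constructor
    · intro h
      obtain ⟨j, hj⟩ := (FiniteField.bijective_frobeniusAlgHom_pow F (AdjoinRoot f)).2
        (AdjoinRoot.liftAlgHom f (Algebra.ofId F _) y h)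
      refine ⟨j, ?_⟩
      have := DFunLike.congr_fun hj ρ
      simp only [AlgHom.coe_pow, FiniteField.coe_frobeniusAlgHom, pow_iterate] at this
      rw [this]
      exact (AdjoinRoot.liftAlgHom_root _ _ _ _).symm
    · rintro ⟨j, rfl⟩
      have := aeval_algHom_apply (FiniteField.frobeniusAlgHom F (AdjoinRoot f) ^ j) ρ f
      simp only [AlgHom.coe_pow, FiniteField.coe_frobeniusAlgHom, pow_iterate] at this
      rw [this, AdjoinRoot.aeval_eq, AdjoinRoot.mk_self, zero_pow (by positivity)]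
  rw [e1, e3, e4]
  refine exists_congr fun j => ?_
  rw [← (iterateFrobenius (AdjoinRoot f) p a).injective.eq_iff, hy, iterateFrobenius_def, ← pow_mul,
    eq_comm, ← mul_eq_one_iff_eq_inv₀ hρ0, ← pow_succ, ← orderOf_dvd_iff_pow_eq_one, hord,
    ← ZMod.natCast_eq_zero_iff]
  push_cast
  exact add_eq_zero_iff_eq_neg

theorem tilde_id_eq_iff (hrp : r ≠ p) (h2 : r ≠ 2) {f : F[X]} (hf : f ∈ cyc F r) :
    tilde (RingHom.id F) f = f ↔ Even (orderOf (Fintype.card F : ZMod r)) := by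
  rw [tilde_eq_iff hrp (a := 0) (by simp) hf, ← exists_pow_eq_neg_one_iff h2 (ord_pos hrp)]
  simp

theorem good_of_mem_cyc (hrp : r ≠ p) (h2 : r ≠ 2) {f : F[X]} (hf : f ∈ cyc F r) : Good σ f := by
  refine Or.inr ⟨ne_of_mem_cyc hrp hf, ?_⟩
  rintro rfl
  have h1 := dvd_of_mem_cyc hf
  rw [show (X + 1 : F[X]) = X - C (-1) by simp, dvd_iff_isRoot] at h1
  simp only [IsRoot.def, eval_sub, eval_pow, eval_X, eval_one,
    (hr.out.odd_of_ne_two h2).neg_one_pow] at h1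
  apply ne_of_mem_cyc hrp hf
  have : (1 : F) = -1 := by linear_combination -h1
  rw [sub_eq_add_neg, ← C_1, ← C_neg, ← this]

end SD

variable {P : PQ σ V}

/-- The fixed space of an endomorphism. -/
noncomputable def fix (T : End F V) : Submodule F V := LinearMap.ker (aeval T (X - 1 : F[X]))

theorem mem_fix {T : End F V} {v : V} : v ∈ fix T ↔ T v = v := by
  simp [fix, sub_eq_zero]

theorem inv_of_le_fix {T : End F V} {W : Submodule F V} (h : W ≤ fix T) : Inv T W :=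
  fun v hv => by rw [mem_fix.1 (h hv)]; exact hv

theorem inv_fix (T : End F V) : Inv T (fix T) := inv_of_le_fix le_rfl

theorem sub_mem_perp_fix {T : End F V} (hT : Isom P T) (v : V) : T v - v ∈ P.perp (fix T) := by
  intro w hw
  rw [P.B_sub_right]
  nth_rewrite 1 [← mem_fix.1 hw]
  rw [hT.B_eq, sub_self]

theorem eq_sup_inf_ker {T : End F V} (hT : Isom P T) {a : F[X]} (ha : Squarefree a)
    (hTa : aeval T a = 0) {f : F[X]} (hfa : f ∣ a) (hs : tilde σ f = f) {W : Submodule F V}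
    (hW : Inv T W) :
    W = W ⊓ LinearMap.ker (aeval T f) ⊔ W ⊓ P.perp (LinearMap.ker (aeval T f)) := by
  refine le_antisymm (fun y hy => ?_) (sup_le inf_le_left inf_le_left)
  obtain ⟨g, rfl⟩ := hfa
  obtain ⟨u, v, huv⟩ := (IsRelPrime.of_squarefree_mul ha).isCoprime
  have h1 : y = aeval T (v * g) y + aeval T f (aeval T u y) := by
    rw [← End.mul_apply, ← map_mul, ← LinearMap.add_apply, ← map_add, mul_comm f, add_comm, huv,
      map_one]
    rfl
  rw [h1]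
  refine Submodule.add_mem_sup ⟨hW.aeval _ y hy, ?_⟩ ⟨hW.aeval _ _ (hW.aeval _ y hy), ?_⟩
  · rw [SetLike.mem_coe, LinearMap.mem_ker, ← End.mul_apply, ← map_mul,
      show f * (v * g) = v * (f * g) by ring, map_mul, hTa, mul_zero]
    rfl
  · intro x hx
    conv_lhs => rw [← hs]
    exact B_eq_zero_of_ker hT hx _

theorem ND.of_sup {A B : Submodule F V} (h : ND P (A ⊔ B)) (hAB : B ≤ P.perp A) :
    ND P A ∧ ND P B := by
  constructor
  · rw [ND, disjoint_iff, eq_bot_iff]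
    rintro x ⟨h1, h2⟩
    refine h.le_bot ⟨Submodule.mem_sup_left h1, ?_⟩
    rw [P.perp_sup]
    exact ⟨h2, P.le_perp_comm.1 hAB h1⟩
  · rw [ND, disjoint_iff, eq_bot_iff]
    rintro x ⟨h1, h2⟩
    refine h.le_bot ⟨Submodule.mem_sup_right h1, ?_⟩
    rw [P.perp_sup]
    exact ⟨hAB h1, h2⟩

variable [FiniteDimensional F V]

theorem edOn_of_le_fix [Fintype F] {T : End F V} {W : Submodule F V} (h : W ≤ fix T) :
    edOn T W = ssEd (finrank F W) 0 := by
  have hW := inv_of_le_fix h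
  have h1 := eq_replicate_of_irreducible (edOn_valid T W) (irreducible_X_sub_C (1 : F))
    (monic_X_sub_C 1) ((aeval_eq_zero_on_iff hW _).1 h)
  have h2 := hW.finrank_eq
  rw [h1, mdeg_replicate, natDegree_X_sub_C, mul_one, mul_one] at h2
  rw [h1, ← h2]
  simp [ssEd]

theorem multiples_of_blocks (hP : P.Nondeg) {T : End F V} (hT : Isom P T) {U : Submodule F V}
    (hU : ND P U) (hI : Inv T U) {c : ℕ} (hc : c ≠ 0)
    (hB : ∀ Y, Y ≤ U → ND P Y → Inv T Y → Y ≠ ⊥ → ∃ A, A ≤ Y ∧ ND P A ∧ Inv T A ∧ finrank F A = c) :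
    ∃ k, finrank F U = c * k ∧ ∀ j ≤ k, ∃ W, W ≤ U ∧ ND P W ∧ Inv T W ∧ finrank F W = c * j := by
  refine nd_induction hP hT hU hI (fun A _ => finrank F A = c) (fun U => ∃ k, finrank F U = c * k ∧
    ∀ j ≤ k, ∃ W, W ≤ U ∧ ND P W ∧ Inv T W ∧ finrank F W = c * j) ?_ ?_ ?_
  · intro Y h1 h2 h3 h4
    obtain ⟨A, a1, a2, a3, a4⟩ := hB Y h1 h2 h3 h4
    exact ⟨A, a1, fun h => hc (by rw [← a4, h, finrank_bot]), a2, a3, a4⟩
  · exact ⟨0, by simp, fun j hj => ⟨⊥, le_rfl, nd_bot, inv_bot T, by simp [Nat.le_zero.1 hj]⟩⟩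
  · rintro A Y - a1 a2 a3 b1 b2 b3 ⟨k, h1, h2⟩
    refine ⟨k + 1, by rw [a1.finrank_sup b3, h1, a3]; ring, fun j hj => ?_⟩
    rcases hj.eq_or_lt with rfl | hj
    · exact ⟨A ⊔ Y, le_rfl, a1.sup b1 b3, a2.sup b2, by rw [a1.finrank_sup b3, h1, a3]; ring⟩
    · obtain ⟨W, c1, c2⟩ := h2 j (by omega)
      exact ⟨W, c1.trans le_sup_right, c2⟩

section Prime

variable [Fintype F] {p r : ℕ} [hp : Fact p.Prime] [CharP F p] [hr : Fact r.Prime]

theorem nd_fix (hP : P.Nondeg) (hrp : r ≠ p) {T : End F V} (hT : Isom P T) (hTr : T ^ r = 1) :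
    ND P (fix T) := by
  have := nd_inf_ker hT (squarefree_sub_one hrp) (aeval_X_pow_sub_one_eq_zero.2 hTr) (nd_top hP)
    (inv_top T) (f := X - 1) (by simpa using sub_dvd_pow_sub_pow (X : F[X]) 1 r) tilde_X_sub_one
  rwa [top_inf_eq] at this

theorem Inv.eq_sup_fix (hrp : r ≠ p) {T : End F V} (hT : Isom P T) (hTr : T ^ r = 1)
    {W : Submodule F V} (hW : Inv T W) : W = W ⊓ fix T ⊔ W ⊓ P.perp (fix T) :=
  eq_sup_inf_ker hT (squarefree_sub_one hrp) (aeval_X_pow_sub_one_eq_zero.2 hTr)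
    (by simpa using sub_dvd_pow_sub_pow (X : F[X]) 1 r) tilde_X_sub_one hW

theorem edOn_of_le_mov (hP : P.Nondeg) (hrp : r ≠ p) {T : End F V} (hT : Isom P T) (hTr : T ^ r = 1)
    {W : Submodule F V} (hW : Inv T W) (h : W ≤ P.perp (fix T)) :
    ∃ t, (∀ f ∈ t, f ∈ cyc F r) ∧ edOn T W = ssEd 0 t := by
  obtain ⟨e, t, h1, h2⟩ := edOn_ssEd hrp hTr W
  refine ⟨t, h1, ?_⟩
  rcases Nat.eq_zero_or_pos e with rfl | he
  · exact h2
  exfalso
  obtain ⟨A, B, a1, -, -, a2, a3, -⟩ := exists_split_of_le hW (s := {(X - 1, 1)}) (by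
    rw [h2, Multiset.singleton_le, ssEd]
    exact Multiset.mem_add.2 (Or.inl (Multiset.mem_replicate.2 ⟨he.ne', rfl⟩)))
  have h3 : A = ⊥ := by
    rw [eq_bot_iff]
    exact (le_inf (le_ker_of_edOn a1 (by rw [a3]; simp)) ((a2 ▸ le_sup_left).trans h)).trans
      (nd_fix hP hrp hT hTr).le_bot
  rw [h3, edOn_bot] at a3
  exact Multiset.singleton_ne_zero _ a3.symm

theorem ed_split (hP : P.Nondeg) (hrp : r ≠ p) {T : End F V} (hT : Isom P T) (hTr : T ^ r = 1)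
    {e : ℕ} {t : Multiset F[X]} (ht : ∀ f ∈ t, f ∈ cyc F r) (h : ed T = ssEd e t) :
    finrank F (fix T) = e ∧ edOn T (P.perp (fix T)) = ssEd 0 t := by
  obtain ⟨t', h1, h2⟩ := edOn_of_le_mov hP hrp hT hTr ((inv_fix T).perp hP hT) le_rfl
  have h3 := (nd_fix hP hrp hT hTr).ed_eq hP hT (inv_fix T)
  rw [h, h2, edOn_of_le_fix le_rfl, ← ssEd_add, add_zero, zero_add] at h3
  obtain ⟨h4, rfl⟩ := ssEd_inj hrp ht h1 h3
  exact ⟨h4.symm, h2⟩

theorem map_tilde_of_nd (hP : P.Nondeg) (hrp : r ≠ p) {T : End F V} (hT : Isom P T)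
    {U : Submodule F V} (hU : ND P U) (hI : Inv T U)
    {e : ℕ} {t : Multiset F[X]} (ht : ∀ f ∈ t, f ∈ cyc F r) (h : edOn T U = ssEd e t) :
    t.map (tilde σ) = t := by
  have h1 := hU.dl_edOn hP hT hI
  rw [h, dl_ssEd] at h1
  refine (ssEd_inj hrp (fun f hf => ?_) ht h1).2
  obtain ⟨g, hg, rfl⟩ := Multiset.mem_map.1 hf
  exact tilde_mem_cyc P.σσ (ht g hg) hrp

theorem exists_ts_iff (hP : P.Nondeg) (hrp : r ≠ p) {T : End F V} (hT : Isom P T) (hTr : T ^ r = 1)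
    (hg : ∀ f ∈ cyc F r, Good σ f) {t : Multiset F[X]} (ht : ∀ f ∈ t, f ∈ cyc F r)
    (h : edOn T (P.perp (fix T)) = ssEd 0 t) (m : ℕ) :
    (∃ W : Submodule F V, finrank F W = m ∧ P.TS W ∧ Inv T W) ↔ ∃ W t', W ≤ fix T ∧ P.TS W ∧
      t' + t'.map (tilde σ) ≤ t ∧
      m = finrank F W + orderOf (Fintype.card F : ZMod r) * Multiset.card t' := by
  have ha := squarefree_sub_one (F := F) hrp
  have hTa := aeval_X_pow_sub_one_eq_zero.2 hTr
  have hC := nd_fix hP hrp hT hTr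
  have hD := (inv_fix T).perp hP hT
  constructor
  · rintro ⟨W, rfl, h1, h2⟩
    obtain ⟨t', h3, h4⟩ := edOn_of_le_mov hP hrp hT hTr (h2.inf hD) inf_le_right
    have h5 := ts_edOn_le hP hT ha hTa (hC.perp hP) hD (h1.mono inf_le_left).2 (h2.inf hD)
      inf_le_right
    have h6 : ∀ f ∈ t' + t'.map (tilde σ), f ∈ cyc F r := by
      intro f hf
      rcases Multiset.mem_add.1 hf with hf | hf
      · exact h3 f hf
      · obtain ⟨g, hg, rfl⟩ := Multiset.mem_map.1 hf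
        exact tilde_mem_cyc P.σσ (h3 g hg) hrp
    rw [h4, h, dl_ssEd, ← ssEd_add, ssEd_le_iff hrp h6 ht] at h5
    refine ⟨W ⊓ fix T, t', inf_le_right, h1.mono inf_le_left, h5.2, ?_⟩
    conv_lhs => rw [h2.eq_sup_fix hrp hT hTr]
    rw [finrank_sup_of_disjoint (Disjoint.mono inf_le_right inf_le_right hC),
      (h2.inf hD).finrank_eq, h4, mdeg_ssEd hrp _ h3, zero_add]
  · rintro ⟨W, t', h1, h2, h3, rfl⟩
    have h4 : ∀ f ∈ t' + t'.map (tilde σ), f ∈ cyc F r := fun f hf => ht f (Multiset.mem_of_le h3 hf)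
    have h5 : ∀ f ∈ t', f ∈ cyc F r := fun f hf => h4 f (Multiset.mem_add.2 (Or.inl hf))
    obtain ⟨W', a1, a2, a3, a4⟩ := exists_ts_edOn hP hT ha hTa (ssEd 0 t') (fun x hx _ => by
      simp only [ssEd, Multiset.replicate_zero, zero_add, Multiset.mem_map] at hx
      obtain ⟨f, hf, rfl⟩ := hx
      exact hg f (h5 f hf)) (hC.perp hP) hD (by
        rw [h, dl_ssEd, ← ssEd_add, ssEd_le_iff hrp h4 ht]; exact ⟨le_rfl, h3⟩)
    refine ⟨W ⊔ W', ?_, h2.sup a2 (a1.trans (P.perp_anti h1)), (inv_of_le_fix h1).sup a3⟩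
    rw [finrank_sup_of_disjoint (Disjoint.mono h1 a1 hC), a3.finrank_eq, a4, mdeg_ssEd hrp _ h5,
      zero_add]

/-- The self-duality data of the irreducible factors of the cyclotomic polynomial: `b` is their
degree, `c` the dimension of a nontrivial block. -/
structure SDData (σ : F →+* F) (r : ℕ) (sd : Prop) (b c : ℕ) : Prop where
  good : ∀ f ∈ cyc F r, Good σ f
  sd_iff : ∀ f ∈ cyc F r, tilde σ f = f ↔ sd
  b_eq : b = orderOf (Fintype.card F : ZMod r)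
  c_sd : sd → c = b
  c_nsd : ¬ sd → c = 2 * b

variable {sd : Prop} {b c : ℕ}

theorem SDData.b_pos (h : SDData σ r sd b c) (hrp : r ≠ p) : 0 < b := h.b_eq ▸ ord_pos hrp

theorem SDData.c_pos (h : SDData σ r sd b c) (hrp : r ≠ p) : 0 < c := by
  have := h.b_pos hrp
  by_cases h1 : sd
  · rw [h.c_sd h1]; exact this
  · rw [h.c_nsd h1]; omega

theorem SDData.exists_block (h : SDData σ r sd b c) (hP : P.Nondeg) (hrp : r ≠ p) {T : End F V}
    (hT : Isom P T) (hTr : T ^ r = 1) {Y : Submodule F V} (h1 : Y ≤ P.perp (fix T)) (h2 : ND P Y)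
    (h3 : Inv T Y) (h4 : Y ≠ ⊥) :
    ∃ A, A ≤ Y ∧ ND P A ∧ Inv T A ∧ finrank F A = c ∧ (¬ sd → Plus P A) := by
  obtain ⟨t, a1, a2⟩ := edOn_of_le_mov hP hrp hT hTr h3 h1
  have ht : t ≠ 0 := by
    rintro rfl
    exact h4 (h3.eq_bot_of_edOn a2)
  obtain ⟨f, hf⟩ := Multiset.exists_mem_of_ne_zero ht
  have hdeg := natDegree_of_mem_cyc hrp (a1 f hf)
  obtain ⟨A, b1, b2, b3, b4⟩ := exists_nd_block hP hT (squarefree_sub_one hrp)
    (aeval_X_pow_sub_one_eq_zero.2 hTr) h2 h3 (f := f) (by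
      rw [a2, ssEd]; exact Multiset.mem_add.2 (Or.inr (Multiset.mem_map.2 ⟨f, hf, rfl⟩)))
    fun _ => h.good f (a1 f hf)
  refine ⟨A, b1, b2, b3, ?_⟩
  rcases b4 with ⟨c1, c2⟩ | ⟨c1, c2, c3⟩
  · have := (h.sd_iff f (a1 f hf)).1 c1
    exact ⟨by rw [b3.finrank_eq, c2, mdeg_singleton, h.c_sd this, h.b_eq, hdeg, mul_one],
      fun h5 => absurd this h5⟩
  · have := mt (h.sd_iff f (a1 f hf)).2 c1
    refine ⟨?_, fun _ => c3⟩
    rw [b3.finrank_eq, c2, mdeg_add, mdeg_singleton, mdeg_singleton, h.c_nsd this, h.b_eq]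
    simp only [natDegree_tilde σ (coeff_ne_of_mem_cyc (a1 f hf)), hdeg]
    ring

theorem SDData.multiples (h : SDData σ r sd b c) (hP : P.Nondeg) (hrp : r ≠ p) {T : End F V}
    (hT : Isom P T) (hTr : T ^ r = 1) {U : Submodule F V} (h1 : U ≤ P.perp (fix T)) (h2 : ND P U)
    (h3 : Inv T U) :
    ∃ k, finrank F U = c * k ∧ ∀ j ≤ k, ∃ W, W ≤ U ∧ ND P W ∧ Inv T W ∧ finrank F W = c * j :=
  multiples_of_blocks hP hT h2 h3 (h.c_pos hrp).ne' fun Y a1 a2 a3 a4 => by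
    obtain ⟨A, b1, b2, b3, b4, -⟩ := h.exists_block hP hrp hT hTr (a1.trans h1) a2 a3 a4
    exact ⟨A, b1, b2, b3, b4⟩

theorem SDData.plus (h : SDData σ r sd b c) (hP : P.Nondeg) (hrp : r ≠ p) {T : End F V}
    (hT : Isom P T) (hTr : T ^ r = 1) (hs : ¬ sd) {U : Submodule F V} (h1 : U ≤ P.perp (fix T))
    (h2 : ND P U) (h3 : Inv T U) : Plus P U := by
  refine nd_induction hP hT h2 h3 (fun A _ => Plus P A) (Plus P) ?_ plus_bot ?_
  · intro Y a1 a2 a3 a4
    obtain ⟨A, b1, b2, b3, b4, b5⟩ := h.exists_block hP hrp hT hTr (a1.trans h1) a2 a3 a4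
    exact ⟨A, b1, fun h5 => (h.c_pos hrp).ne' (by rw [← b4, h5, finrank_bot]), b2, b3, b5 hs⟩
  · intro A Y _ a1 _ a3 _ _ b3 b4
    exact a3.sup b4 (a1.disjoint b3) b3

theorem SDData.exists_mult (h : SDData σ r sd b c) (hσ : ∀ x, σ (σ x) = x) (hrp : r ≠ p) (k : ℕ) :
    ∃ t : Multiset F[X], (∀ f ∈ t, f ∈ cyc F r) ∧ t.map (tilde σ) = t ∧
      b * Multiset.card t = c * k ∧ ∀ t', t' + t'.map (tilde σ) ≤ t →
        (sd → Multiset.card t' = 0 ∨ 2 * Multiset.card t' + (r - 1) / b ≤ k + 1) ∧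
          (¬ sd → Multiset.card t' ≤ k) := by
  obtain ⟨f, hf⟩ := exists_mem_cyc (F := F) hrp
  by_cases hs : sd
  · obtain ⟨t, h1, h2, h3⟩ := exists_bad_double (cyc F r) ⟨f, hf⟩ k
    have h4 : ∀ t' : Multiset F[X], (∀ f ∈ t', f ∈ cyc F r) → t'.map (tilde σ) = t' := fun t' h5 =>
      (Multiset.map_congr rfl fun g hg => (h.sd_iff g (h5 g hg)).2 hs).trans (Multiset.map_id' _)
    refine ⟨t, h1, h4 t h1, by rw [h2, h.c_sd hs], fun t' ht => ⟨fun _ => ?_, fun h5 => absurd hs h5⟩⟩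
    rw [h4 t' fun g hg => h1 g (Multiset.mem_of_le ht (Multiset.mem_add.2 (Or.inl hg)))] at ht
    rw [h.b_eq, ← card_cyc hrp]
    exact h3 t' ht
  · refine ⟨Multiset.replicate k f + Multiset.replicate k (tilde σ f), fun g hg => ?_, ?_, ?_,
      fun t' ht => ⟨fun h5 => absurd h5 hs, fun _ => ?_⟩⟩
    · rcases Multiset.mem_add.1 hg with hg | hg <;> rw [Multiset.eq_of_mem_replicate hg]
      exacts [hf, tilde_mem_cyc hσ hf hrp]
    · rw [Multiset.map_add, Multiset.map_replicate, Multiset.map_replicate,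
        tilde_tilde hσ (mem_cyc.1 hf).2.1 (coeff_ne_of_mem_cyc hf), add_comm]
    · simp only [Multiset.card_add, Multiset.card_replicate, h.c_nsd hs]; ring
    · have := Multiset.card_le_card ht
      simp only [Multiset.card_add, Multiset.card_replicate, Multiset.card_map] at this
      omega

theorem SDData.exists_ts_mult (h : SDData σ r sd b c) (hσ : ∀ x, σ (σ x) = x) (hrp : r ≠ p)
    {t : Multiset F[X]} (h1 : ∀ f ∈ t, f ∈ cyc F r) (h2 : t.map (tilde σ) = t) {k j : ℕ}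
    (h3 : b * Multiset.card t = c * k) (h4 : sd → j = 0 ∨ 2 * j + (r - 1) / b ≤ k + 1)
    (h5 : ¬ sd → j ≤ k) : ∃ t', t' + t'.map (tilde σ) ≤ t ∧ Multiset.card t' = j := by
  have hb := h.b_pos hrp
  by_cases hs : sd
  · rw [h.c_sd hs] at h3
    obtain ⟨t', a1, a2⟩ := exists_double_le (cyc F r) j t h1 (by
      rw [card_cyc hrp, ← h.b_eq, Nat.eq_of_mul_eq_mul_left hb h3]; exact h4 hs)
    refine ⟨t', ?_, a2⟩
    rwa [(Multiset.map_congr rfl fun g hg => (h.sd_iff g (h1 g (Multiset.mem_of_le a1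
      (Multiset.mem_add.2 (Or.inl hg))))).2 hs).trans (Multiset.map_id' _)]
  · obtain ⟨t₀, rfl⟩ := exists_eq_add_map (tilde σ) t h2 (fun g hg => mt (h.sd_iff g (h1 g hg)).1 hs)
      fun g hg => tilde_tilde hσ (mem_cyc.1 (h1 g hg)).2.1 (coeff_ne_of_mem_cyc (h1 g hg))
    rw [h.c_nsd hs, Multiset.card_add, Multiset.card_map, mul_comm 2, mul_assoc] at h3
    have h6 := Nat.eq_of_mul_eq_mul_left hb h3
    obtain ⟨t', a1, a2⟩ := exists_le_card_eq (t := t₀) (j := j) (by have := h5 hs; omega)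
    exact ⟨t', add_le_add a1 (Multiset.map_le_map a1), a2⟩

theorem exists_of_ed (hP : P.Nondeg) (hrp : r ≠ p) (h : SDData σ r sd b c) {T : End F V}
    (hT : Isom P T) {t : Multiset F[X]} (h1 : ∀ f ∈ t, f ∈ cyc F r) {k e : ℕ} (hk : 1 ≤ k)
    (h3 : b * Multiset.card t = c * k) (h4 : ed T = ssEd e t) :
    T ^ r = 1 ∧ T ≠ 1 ∧ finrank F (P.perp (fix T)) = c * k ∧ edOn T (P.perp (fix T)) = ssEd 0 t := by
  have hTr : T ^ r = 1 := pow_eq_one_iff_ed.2 (h4 ▸ dvd_of_mem_ssEd e h1)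
  have h5 := (ed_split hP hrp hT hTr h1 h4).2
  have h6 : finrank F (P.perp (fix T)) = c * k := by
    rw [((inv_fix T).perp hP hT).finrank_eq, h5, mdeg_ssEd hrp _ h1, ← h.b_eq, h3, zero_add]
  refine ⟨hTr, ?_, h6, h5⟩
  rintro rfl
  have : fix (1 : End F V) = ⊤ := eq_top_iff.2 fun v _ => mem_fix.2 rfl
  rw [this, P.perp_top hP, finrank_bot] at h6
  have := h.c_pos hrp
  have : 0 < c * k := by positivity
  omega

theorem exists_k (hP : P.Nondeg) (hrp : r ≠ p) (h : SDData σ r sd b c) {T : End F V}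
    (hT : Isom P T) (hTr : T ^ r = 1) (hT1 : T ≠ 1) :
    ∃ k, 1 ≤ k ∧ c * k ≤ finrank F V ∧ finrank F (P.perp (fix T)) = c * k := by
  obtain ⟨k, h1, -⟩ := h.multiples hP hrp hT hTr le_rfl ((nd_fix hP hrp hT hTr).perp hP)
    ((inv_fix T).perp hP hT)
  refine ⟨k, ?_, h1 ▸ Submodule.finrank_le _, h1⟩
  by_contra hk
  have h2 : P.perp (fix T) = ⊥ := Submodule.finrank_eq_zero.1 (by rw [h1, show k = 0 by omega]; rfl)
  apply hT1
  ext v
  have := sub_mem_perp_fix hT v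
  rw [h2, Submodule.mem_bot, sub_eq_zero] at this
  exact this

/-- Elusivity on totally singular subspaces, reduced to arithmetic. -/
theorem forall_ts_iff (hP : P.Nondeg) (hrp : r ≠ p) (h : SDData σ r sd b c) (m : ℕ)
    (Adm : ℕ → Prop) (Idx : ℕ → ℕ → Prop)
    (h1 : ∀ T, Isom P T → T ^ r = 1 → ∀ k, finrank F (P.perp (fix T)) = c * k →
      Adm k ∧ ∀ e, (∃ W, W ≤ fix T ∧ P.TS W ∧ finrank F W = e) ↔ Idx k e)
    (h2 : ∀ k t, c * k ≤ finrank F V → Adm k → (∀ f ∈ t, f ∈ cyc F r) → t.map (tilde σ) = t →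
      b * Multiset.card t = c * k → ∃ T, Isom P T ∧ ed T = ssEd (finrank F V - c * k) t) :
    (∀ T, Isom P T → T ^ r = 1 → T ≠ 1 → ∃ W : Submodule F V, finrank F W = m ∧ P.TS W ∧ Inv T W) ↔
      ∀ k, 1 ≤ k → c * k ≤ finrank F V → Adm k → ∃ j, (sd → j = 0 ∨ 2 * j + (r - 1) / b ≤ k + 1) ∧
        (¬ sd → j ≤ k) ∧ b * j ≤ m ∧ Idx k (m - b * j) := by
  constructor
  · intro H k hk hkn hA
    obtain ⟨t, a1, a2, a3, a4⟩ := h.exists_mult P.σσ hrp k
    obtain ⟨T, hT, hed⟩ := h2 k t hkn hA a1 a2 a3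
    obtain ⟨b1, b2, b3, b4⟩ := exists_of_ed hP hrp h hT a1 hk a3 hed
    obtain ⟨W, t', c1, c2, c3, c4⟩ := (exists_ts_iff hP hrp hT b1 h.good a1 b4 m).1 (H T hT b1 b2)
    rw [← h.b_eq] at c4
    exact ⟨Multiset.card t', (a4 t' c3).1, (a4 t' c3).2, by omega,
      ((h1 T hT b1 k b3).2 _).1 ⟨W, c1, c2, by omega⟩⟩
  · intro H T hT hTr hT1
    obtain ⟨k, a1, a2, a3⟩ := exists_k hP hrp h hT hTr hT1
    obtain ⟨j, b1, b2, b3, b4⟩ := H k a1 a2 (h1 T hT hTr k a3).1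
    obtain ⟨W, c1, c2, c3⟩ := ((h1 T hT hTr k a3).2 _).2 b4
    have hD := (inv_fix T).perp hP hT
    obtain ⟨t, d1, d2⟩ := edOn_of_le_mov hP hrp hT hTr hD le_rfl
    obtain ⟨t', e1, e2⟩ := h.exists_ts_mult P.σσ hrp d1
      (map_tilde_of_nd hP hrp hT ((nd_fix hP hrp hT hTr).perp hP) hD d1 d2) (k := k) (by
        rw [← a3, hD.finrank_eq, d2, mdeg_ssEd hrp _ d1, zero_add, h.b_eq]) b1 b2
    exact (exists_ts_iff hP hrp hT hTr h.good d1 d2 m).2 ⟨W, t', c1, c2, e1, by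
      rw [← h.b_eq, e2]; omega⟩

/-- Elusivity on nondegenerate subspaces, reduced to arithmetic. -/
theorem forall_nd_iff (hP : P.Nondeg) (hrp : r ≠ p) (h : SDData σ r sd b c) (m : ℕ)
    (Ψ : Submodule F V → Prop) (Adm : ℕ → Prop) (Sub : ℕ → ℕ → Prop)
    (h1 : ∀ T, Isom P T → T ^ r = 1 → ∀ k, finrank F (P.perp (fix T)) = c * k →
      Adm k ∧ ∀ j W', W' ≤ P.perp (fix T) → ND P W' → Inv T W' → finrank F W' = c * j →
        ((∃ W, W ≤ fix T ∧ ND P W ∧ finrank F W + c * j = m ∧ Ψ (W ⊔ W')) ↔ Sub k j))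
    (h2 : ∀ k t, c * k ≤ finrank F V → Adm k → (∀ f ∈ t, f ∈ cyc F r) → t.map (tilde σ) = t →
      b * Multiset.card t = c * k → ∃ T, Isom P T ∧ ed T = ssEd (finrank F V - c * k) t) :
    (∀ T, Isom P T → T ^ r = 1 → T ≠ 1 → ∃ W : Submodule F V, (finrank F W = m ∧ ND P W ∧ Ψ W) ∧ Inv T W) ↔
      ∀ k, 1 ≤ k → c * k ≤ finrank F V → Adm k → ∃ j ≤ k, Sub k j := by
  constructor
  · intro H k hk hkn hA
    obtain ⟨t, a1, a2, a3, -⟩ := h.exists_mult P.σσ hrp k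
    obtain ⟨T, hT, hed⟩ := h2 k t hkn hA a1 a2 a3
    obtain ⟨b1, b2, b3, -⟩ := exists_of_ed hP hrp h hT a1 hk a3 hed
    obtain ⟨W, ⟨c1, c2, c3⟩, c4⟩ := H T hT b1 b2
    have hD := (inv_fix T).perp hP hT
    have e := c4.eq_sup_fix hrp hT b1
    have hle : W ⊓ P.perp (fix T) ≤ P.perp (W ⊓ fix T) :=
      inf_le_right.trans (P.perp_anti inf_le_right)
    obtain ⟨d1, d2⟩ := ND.of_sup (e ▸ c2) hle
    obtain ⟨j, d3, -⟩ := h.multiples hP hrp hT b1 inf_le_right d2 (c4.inf hD)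
    refine ⟨j, ?_, ((h1 T hT b1 k b3).2 j _ inf_le_right d2 (c4.inf hD) d3).1
      ⟨W ⊓ fix T, inf_le_right, d1, ?_, e ▸ c3⟩⟩
    · have := Submodule.finrank_mono (inf_le_right : W ⊓ P.perp (fix T) ≤ _)
      rw [d3, b3] at this
      exact Nat.le_of_mul_le_mul_left this (h.c_pos hrp)
    · rw [← d3, ← d1.finrank_sup hle, ← e, c1]
  · intro H T hT hTr hT1
    obtain ⟨k, a1, a2, a3⟩ := exists_k hP hrp h hT hTr hT1
    obtain ⟨j, b1, b2⟩ := H k a1 a2 (h1 T hT hTr k a3).1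
    obtain ⟨k', c1, c2⟩ := h.multiples hP hrp hT hTr le_rfl ((nd_fix hP hrp hT hTr).perp hP)
      ((inv_fix T).perp hP hT)
    obtain rfl : k' = k := Nat.eq_of_mul_eq_mul_left (h.c_pos hrp) (c1.symm.trans a3)
    obtain ⟨W', d1, d2, d3, d4⟩ := c2 j b1
    obtain ⟨W, e1, e2, e3, e4⟩ := ((h1 T hT hTr k' a3).2 j W' d1 d2 d3 d4).2 b2
    have hle : W' ≤ P.perp W := d1.trans (P.perp_anti e1)
    exact ⟨W ⊔ W', ⟨by rw [e2.finrank_sup hle, d4, e3], e2.sup d2 hle, e4⟩,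
      (inv_of_le_fix e1).sup d3⟩

end Prime

end CfsgLib.Elusive
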