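import Mathlib
import Cfsg.Agent.Lib.Elusive.IsoSS

/-!
Orthogonal sums of isometries and orthogonal Jordan blocks of unipotent isometries.
-/

set_option autoImplicit false

namespace CfsgLib.Elusive

open Polynomial Module CfsgLib.MatConj CfsgLib.Forms

variable {F : Type*} [Field F] {σ : F →+* F} {V : Type*} [AddCommGroup V] [Module F V]
  {P : PQ σ V}

theorem sing_of_two (h2 : (2 : F) ≠ 0) {x : V} (h : P.B x x = 0) : P.Sing x := by
  have h1 := P.Λ_ge (2⁻¹ * P.N x)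
  rw [P.self] at h
  have : 2⁻¹ * P.N x - P.ε * σ (2⁻¹ * P.N x) = P.N x := by
    rw [map_mul, map_inv₀, map_ofNat]
    field_simp
    linear_combination -h
  rwa [this] at h1

theorem isom_of_add {T : End F V} {A B : Submodule F V} (hAB : A ⊔ B = ⊤) (h : B ≤ P.perp A)
    (h' : ∀ a ∈ A, ∀ b ∈ B, P.B (T a) (T b) = 0)
    (hA : ∀ x ∈ A, ∀ y ∈ A, P.B (T x) (T y) = P.B x y) (hA' : ∀ x ∈ A, P.N (T x) - P.N x ∈ P.Λ)
    (hB : ∀ x ∈ B, ∀ y ∈ B, P.B (T x) (T y) = P.B x y) (hB' : ∀ x ∈ B, P.N (T x) - P.N x ∈ P.Λ) :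
    Isom P T := by
  have hd : ∀ v, ∃ a ∈ A, ∃ b ∈ B, a + b = v := fun v =>
    Submodule.mem_sup.1 (hAB ▸ Submodule.mem_top)
  refine ⟨fun x y => ?_, fun x => ?_⟩
  · obtain ⟨a, ha, b, hb, rfl⟩ := hd x
    obtain ⟨a', ha', b', hb', rfl⟩ := hd y
    simp only [map_add, LinearMap.add_apply, hA a ha a' ha', hB b hb b' hb', h' a ha b' hb',
      h hb' a ha, P.B_eq_zero_comm.1 (h' a' ha' b hb), P.B_eq_zero_comm.1 (h hb a' ha')]
  · obtain ⟨a, ha, b, hb, rfl⟩ := hd x
    have h1 := P.N_add (T a) (T b)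
    have h2 := P.N_add a b
    rw [h' a ha b hb] at h1
    rw [h hb a ha] at h2
    have := P.Λ.add_mem (P.Λ.add_mem (P.Λ.sub_mem h1 h2) (hA' a ha)) (hB' b hb)
    rw [map_add]
    convert this using 1; ring

theorem Isom.conj {V' : Type*} [AddCommGroup V'] [Module F V'] {P' : PQ σ V'} {e : V ≃ₗ[F] V'}
    (he : P.IsIso₂ P' e) {T : End F V} (hT : Isom P T) : Isom P' (e.conj T) := he.conj hT

theorem B_sub_one {T : End F V} (hT : Isom P T) (x y : V) :
    P.B ((T - 1) x) (T y) = -P.B x ((T - 1) y) := by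
  simp only [LinearMap.sub_apply, End.one_apply, P.B_sub_left, P.B_sub_right, hT.B_eq]; ring

theorem B_sub_one_pow {T : End F V} (hT : Isom P T) (a : ℕ) (x y : V) :
    P.B (((T - 1) ^ a) x) ((T ^ a) y) = (-1) ^ a * P.B x (((T - 1) ^ a) y) := by
  induction a generalizing x y with
  | zero => simp
  | succ a ih =>
    have hc : Commute (T - 1) (T ^ a) := ((Commute.refl T).sub_left (Commute.one_left T)).pow_right a
    rw [pow_succ' (T - 1), pow_succ' T, End.mul_apply, End.mul_apply, B_sub_one hT,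
      ← End.mul_apply (T - 1), hc.eq, End.mul_apply, ih, ← End.mul_apply, ← pow_succ, ← pow_succ']
    ring

variable [FiniteDimensional F V]

theorem ed_conj {V' : Type*} [AddCommGroup V'] [Module F V'] [FiniteDimensional F V']
    (e : V ≃ₗ[F] V') (T : End F V) : ed (e.conj T) = ed T :=
  (Sim.ed_eq (S := T) (T := e.conj T) ⟨e, fun v => by simp⟩).symm

theorem exists_isom_of_isIso₂ {V' : Type*} [AddCommGroup V'] [Module F V'] [FiniteDimensional F V']
    {P' : PQ σ V'} {e : V ≃ₗ[F] V'} (he : P.IsIso₂ P' e) {T : End F V} (hT : Isom P T) :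
    ∃ T', Isom P' T' ∧ ed T' = ed T := ⟨_, hT.conj he, ed_conj e T⟩

/-- Orthogonal sum of two isometries. -/
theorem exists_sum (hP : P.Nondeg) {A : Submodule F V} (hA : ND P A) {S : End F A}
    {S' : End F (P.perp A)} (hS : Isom (P.restrict A) S) (hS' : Isom (P.restrict (P.perp A)) S') :
    ∃ T, Isom P T ∧ (∀ a : A, T a = S a) ∧ (∀ b : P.perp A, T b = S' b) ∧ Inv T A ∧
      edOn T A = ed S ∧ edOn T (P.perp A) = ed S' ∧ ed T = ed S + ed S' := by
  have hc := P.isCompl_perp hP hA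
  let T : End F V := LinearMap.ofIsCompl hc (A.subtype.comp S) ((P.perp A).subtype.comp S')
  have h1 : ∀ a : A, T a = S a := fun a => LinearMap.ofIsCompl_apply_left hc a
  have h2 : ∀ b : P.perp A, T b = S' b := fun a => LinearMap.ofIsCompl_apply_right hc a
  have h3 : Inv T A := fun a ha => by rw [h1 ⟨a, ha⟩]; exact (S _).2
  have h4 : Inv T (P.perp A) := fun a ha => by rw [h2 ⟨a, ha⟩]; exact (S' _).2
  have h5 : edOn T A = ed S := by
    rw [edOn_eq h3]; congr 1; ext a; exact h1 a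
  have h6 : edOn T (P.perp A) = ed S' := by
    rw [edOn_eq h4]; congr 1; ext a; exact h2 a
  refine ⟨T, isom_of_add hc.sup_eq_top le_rfl (fun a ha b hb => h4 b hb _ (h3 a ha))
    (fun x hx y hy => ?_) (fun x hx => ?_) (fun x hx y hy => ?_) (fun x hx => ?_), h1, h2, h3, h5,
    h6, by rw [ed_eq_add h3 h4 hc, h5, h6]⟩
  · rw [h1 ⟨x, hx⟩, h1 ⟨y, hy⟩]; exact hS.B_eq _ _
  · rw [h1 ⟨x, hx⟩]; exact hS.N_eq _
  · rw [h2 ⟨x, hx⟩, h2 ⟨y, hy⟩]; exact hS'.B_eq _ _
  · rw [h2 ⟨x, hx⟩]; exact hS'.N_eq _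

theorem ed_one [Fintype F] : ed (1 : End F V) = ssEd (finrank F V) 0 := by
  rw [← edOn_top, edOn_of_le_fix fun v _ => mem_fix.2 rfl, finrank_top]

theorem unEd_replicate_one [Fintype F] (e : ℕ) :
    (unEd (Multiset.replicate e 1) : Multiset (F[X] × ℕ)) = ssEd e 0 := by simp [unEd, ssEd]

theorem exists_ext_one [Fintype F] (hP : P.Nondeg) {A : Submodule F V} (hA : ND P A) {S : End F A}
    (hS : Isom (P.restrict A) S) : ∃ T, Isom P T ∧ (∀ a : A, T a = S a) ∧
      (∀ b ∈ P.perp A, T b = b) ∧ ed T = ssEd (finrank F V - finrank F A) 0 + ed S := by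
  obtain ⟨T, h1, h2, h3, -, -, -, h4⟩ := exists_sum hP hA hS (S' := 1) (PQ.IsIso.id _)
  refine ⟨T, h1, h2, fun b hb => h3 ⟨b, hb⟩, ?_⟩
  have := P.finrank_perp hP A
  rw [h4, ed_one, add_comm, show finrank F (P.perp A) = finrank F V - finrank F A by omega]

section Unip

variable (hP : P.Nondeg) {T : End F V} (hT : Isom P T) {U : Submodule F V} (hI : Inv T U)
include hP hT hI

theorem B_pow_pow {k a b : ℕ} (hk : ∀ v ∈ U, ((T - 1) ^ (k + 1)) v = 0) (hab : k ≤ a + b) (x : V)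
    {y : V} (hy : y ∈ U) : P.B (((T - 1) ^ a) x) (((T - 1) ^ b) y) =
      (-1) ^ a * P.B x (((T - 1) ^ (a + b)) y) := by
  have hc : ∀ a b, Commute ((T - 1) ^ a) (T ^ b) := fun a b =>
    ((Commute.refl T).sub_left (Commute.one_left T)).pow_pow a b
  rw [← (hI.pow a).map_eq ((isIso_pow hT a).injective hP)] at hy
  obtain ⟨y', hy', rfl⟩ := hy
  have h1 : T (((T - 1) ^ (a + b)) y') = ((T - 1) ^ (a + b)) y' := by
    obtain ⟨d, hd⟩ := Nat.exists_eq_add_of_le' hab
    have : ((T - 1) ^ (a + b + 1)) y' = 0 := by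
      rw [hd, add_assoc, pow_add, End.mul_apply, hk y' hy', map_zero]
    rwa [pow_succ', End.mul_apply, LinearMap.sub_apply, End.one_apply, sub_eq_zero] at this
  have h2 : ∀ c, (T ^ c) (((T - 1) ^ (a + b)) y') = ((T - 1) ^ (a + b)) y' := by
    intro c
    induction c with
    | zero => rfl
    | succ c ih => rw [pow_succ, End.mul_apply, h1, ih]
  rw [← End.mul_apply, (hc b a).eq, End.mul_apply, B_sub_one_pow hT, ← End.mul_apply ((T - 1) ^ a),
    ← pow_add, ← End.mul_apply ((T - 1) ^ (a + b)), (hc _ a).eq, End.mul_apply, h2]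

theorem B_pow_pow_eq_zero {k a b : ℕ} (hk : ∀ v ∈ U, ((T - 1) ^ k) v = 0) (hab : k ≤ a + b) (x : V)
    {y : V} (hy : y ∈ U) : P.B (((T - 1) ^ a) x) (((T - 1) ^ b) y) = 0 := by
  obtain ⟨d, hd⟩ := Nat.exists_eq_add_of_le' hab
  rw [B_pow_pow hP hT hI (k := k) (fun v hv => by rw [pow_succ', End.mul_apply, hk v hv, map_zero])
    hab x hy, hd, pow_add, End.mul_apply, hk y hy]
  simp

theorem beta_symm {k : ℕ} (hk : ∀ v ∈ U, ((T - 1) ^ (k + 1)) v = 0) (x : V) {y : V} (hy : y ∈ U) :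
    P.B y (((T - 1) ^ k) x) = P.ε * (-1) ^ k * σ (P.B x (((T - 1) ^ k) y)) := by
  have := B_pow_pow hP hT hI hk (a := k) (b := 0) le_rfl x hy
  rw [pow_zero, End.one_apply, add_zero] at this
  rw [P.symm, this]
  simp [mul_assoc]

variable [Fintype F]

omit hP hT in
theorem finrank_inf_ker_pow {μ : Multiset ℕ} (h : edOn T U = unEd μ) (k : ℕ) :
    finrank F (U ⊓ LinearMap.ker ((T - 1) ^ k) : Submodule F V) = (μ.map fun a => min a k).sum := by
  have h1 := gcdDeg_edOn hI ((X - C 1) ^ k)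
  rw [gcdDeg_pow (edOn_valid T U) (irreducible_X_sub_C 1) (monic_X_sub_C 1), h,
    show aeval T ((X - C 1 : F[X]) ^ k) = (T - 1) ^ k by simp] at h1
  simp only [unEd, Multiset.map_map, Function.comp_apply, map_one, if_true] at h1
  rw [← h1]
  have : (X - 1 : F[X]).natDegree = 1 := natDegree_X_sub_C 1
  simp only [this, one_mul]

theorem exists_block_of_nondeg {k : ℕ} (hk : ∀ v ∈ U, ((T - 1) ^ (k + 1)) v = 0)
    {S : Submodule F V} (hS : S ≤ U)
    (hβ : ∀ u ∈ S, (∀ v ∈ S, P.B u (((T - 1) ^ k) v) = 0) → u = 0) :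
    ∃ A, A ≤ U ∧ ND P A ∧ Inv T A ∧
      edOn T A = unEd (Multiset.replicate (finrank F S) (k + 1)) := by
  set N := T - 1 with hN
  have hNU : Inv N U := fun v hv => U.sub_mem (hI v hv) hv
  let A := (Finset.range (k + 1)).sup fun i => S.map (N ^ i)
  have hle : ∀ i < k + 1, S.map (N ^ i) ≤ A := fun i hi =>
    Finset.le_sup (f := fun i => S.map (N ^ i)) (Finset.mem_range.2 hi)
  have hAU : A ≤ U := Finset.sup_le fun i _ =>
    (Submodule.map_mono hS).trans (inv_iff_map_le.1 (hNU.pow i))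
  have hSA : S ≤ A := fun s hs => hle 0 (by omega) ⟨s, hs, rfl⟩
  have hmem : ∀ i, ∀ s ∈ S, (N ^ i) s ∈ A := by
    intro i s hs
    rcases lt_or_ge i (k + 1) with h | h
    · exact hle i h ⟨s, hs, rfl⟩
    · obtain ⟨d, rfl⟩ := Nat.exists_eq_add_of_le' h
      rw [pow_add, End.mul_apply, hk s (hS hs), map_zero]; exact A.zero_mem
  have hNA : Inv N A := by
    rw [inv_iff_map_le, Submodule.map_le_iff_le_comap]
    refine Finset.sup_le fun i _ => ?_
    rintro _ ⟨s, hs, rfl⟩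
    have := hmem (i + 1) s hs
    rwa [pow_succ'] at this
  have hTA : Inv T A := fun v hv => by
    have := A.add_mem (hNA v hv) hv
    simpa [hN] using this
  have hdec : A ≤ S ⊔ A.map N := by
    refine Finset.sup_le fun i _ => ?_
    rintro _ ⟨s, hs, rfl⟩
    cases i with
    | zero => exact Submodule.mem_sup_left hs
    | succ i => exact Submodule.mem_sup_right ⟨_, hmem i s hs, by rw [pow_succ']; rfl⟩
  have hND : ND P A := by
    rw [nd_iff]
    intro x hx h0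
    have : ∀ j ≤ k + 1, ∃ y ∈ A, x = (N ^ j) y := by
      intro j hj
      induction j with
      | zero => exact ⟨x, hx, rfl⟩
      | succ j ih =>
        obtain ⟨y, hy, rfl⟩ := ih (by omega)
        obtain ⟨u, hu, _, ⟨y', hy', rfl⟩, rfl⟩ := Submodule.mem_sup.1 (hdec hy)
        have hu0 : u = 0 := hβ u hu fun v hv => by
          have h1 := h0 _ (hmem (k - j) v hv)
          rw [map_add, P.B_add_left, ← End.mul_apply, ← pow_succ,
            B_pow_pow_eq_zero hP hT hI hk (a := j + 1) (b := k - j) (by omega) y' (hS hv), add_zero,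
            B_pow_pow hP hT hI hk (by omega) _ (hS hv), show j + (k - j) = k by omega] at h1
          simpa using h1
        exact ⟨y', hy', by rw [hu0, zero_add, pow_succ]; rfl⟩
    obtain ⟨y, hy, rfl⟩ := this (k + 1) le_rfl
    exact hk y (hAU hy)
  refine ⟨A, hAU, hND, hTA, ?_⟩
  obtain ⟨ν, h1, h2⟩ := exists_unEd_of_dvd (edOn_valid T A) (k := k + 1)
    ((aeval_eq_zero_on_iff hTA _).1 fun v hv => by simpa using hk v (hAU hv))
  have h3 : ν.sum ≤ (k + 1) * finrank F S := by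
    rw [← mdeg_unEd (F := F), ← h2, ← hTA.finrank_eq]
    refine (finrank_sup_le_sum _ _).trans ?_
    refine (Finset.sum_le_card_nsmul _ _ (finrank F S) fun i _ => Submodule.finrank_map_le _ _).trans ?_
    simp
  have h4 : finrank F S + (ν.map fun a => min a k).sum ≤ ν.sum := by
    rw [← finrank_inf_ker_pow hTA h2, ← mdeg_unEd (F := F) ν, ← h2, ← hTA.finrank_eq,
      ← finrank_sup_of_disjoint]
    · exact Submodule.finrank_mono (sup_le hSA inf_le_left)
    · rw [disjoint_iff, eq_bot_iff]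
      rintro u ⟨hu, -, hu'⟩
      refine hβ u hu fun v hv => ?_
      rw [beta_symm hP hT hI hk v (hS hu), show (N ^ k) u = 0 from hu']
      simp
  have h5 : ∀ ν : Multiset ℕ, (∀ a ∈ ν, a ≤ k + 1) →
      ν.sum = (ν.map fun a => min a k).sum + ν.count (k + 1) := by
    intro ν
    induction ν using Multiset.induction_on with
    | empty => simp
    | cons a ν ih =>
      intro h
      have := ih fun b hb => h b (Multiset.mem_cons_of_mem hb)
      have h6 := h a (Multiset.mem_cons_self _ _)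
      rw [Multiset.map_cons, Multiset.sum_cons, Multiset.sum_cons, Multiset.count_cons]
      split_ifs <;> omega
  have h6 := h5 ν fun a ha => (h1 a ha).2
  obtain ⟨ν', rfl⟩ := Multiset.le_iff_exists_add.1
    (Multiset.le_count_iff_replicate_le.1 (show finrank F S ≤ ν.count (k + 1) by omega))
  rw [Multiset.sum_add, Multiset.sum_replicate, smul_eq_mul, mul_comm] at h3
  have h7 : ν' = 0 := by
    rw [Multiset.eq_zero_iff_forall_notMem]
    intro a ha
    have := Multiset.single_le_sum (fun _ _ => Nat.zero_le _) a ha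
    have := (h1 a (Multiset.mem_add.2 (Or.inr ha))).1
    omega
  rw [h2, h7, add_zero]

/-- Extraction of one orthogonal Jordan block or of a pair of Jordan blocks. -/
theorem exists_unip_block (hU : ND P U) {μ : Multiset ℕ} (h : edOn T U = unEd μ) (h0 : U ≠ ⊥) :
    ∃ k, k + 1 ∈ μ ∧ (∀ v ∈ U, ((T - 1) ^ (k + 1)) v = 0) ∧
      (∃ v ∈ U, ∃ w ∈ U, P.B v (((T - 1) ^ k) w) ≠ 0) ∧ ∃ A, A ≤ U ∧ ND P A ∧ Inv T A ∧
      (((∃ v ∈ U, P.B v (((T - 1) ^ k) v) ≠ 0) ∧ edOn T A = unEd {k + 1}) ∨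
        ((∀ v ∈ U, P.B v (((T - 1) ^ k) v) = 0) ∧ edOn T A = unEd {k + 1, k + 1})) := by
  classical
  have hμ : μ ≠ 0 := by
    rintro rfl
    exact h0 (hI.eq_bot_of_edOn h)
  obtain ⟨k', hk1, hk2⟩ := Multiset.exists_max_image (fun a : ℕ => a) hμ
  have hv := edOn_valid T U
  rw [h] at hv
  have hpos : 0 < k' := (hv _ (Multiset.mem_map_of_mem _ hk1)).2.2
  obtain ⟨k, rfl⟩ : ∃ k, k' = k + 1 := ⟨k' - 1, by omega⟩
  have hk : ∀ v ∈ U, ((T - 1) ^ (k + 1)) v = 0 := by
    have := (aeval_eq_zero_on_iff hI ((X - 1) ^ (k + 1))).2 (by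
      rw [h]
      intro x hx
      obtain ⟨a, ha, rfl⟩ := Multiset.mem_map.1 hx
      exact pow_dvd_pow _ (hk2 a ha))
    simpa using this
  obtain ⟨w, hw, hw0⟩ : ∃ w ∈ U, ((T - 1) ^ k) w ≠ 0 := by
    by_contra hc
    push Not at hc
    have := (aeval_eq_zero_on_iff hI ((X - 1) ^ k)).1 (by simpa using hc) (X - 1, k + 1)
      (h ▸ Multiset.mem_map_of_mem _ hk1)
    have := (pow_dvd_pow_iff (X_sub_C_ne_zero (1 : F)) (irreducible_X_sub_C 1).not_isUnit).1 this
    omega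
  have hNU : Inv (T - 1) U := fun v hv => U.sub_mem (hI v hv) hv
  obtain ⟨v, hv, hvw⟩ : ∃ v ∈ U, P.B v (((T - 1) ^ k) w) ≠ 0 := by
    obtain ⟨v, hv, h1⟩ := nd_iff'.1 hU _ (hNU.pow k w hw) hw0
    exact ⟨v, hv, fun h2 => h1 (P.B_eq_zero_comm.1 h2)⟩
  refine ⟨k, hk1, hk, ⟨v, hv, w, hw, hvw⟩, ?_⟩
  by_cases hc : ∃ v ∈ U, P.B v (((T - 1) ^ k) v) ≠ 0
  · obtain ⟨u, hu, hu0⟩ := id hc
    have hu1 : u ≠ 0 := by rintro rfl; simp at hu0
    obtain ⟨A, a1, a2, a3, a4⟩ := exists_block_of_nondeg hP hT hI hk (S := Submodule.span F {u})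
      ((Submodule.span_singleton_le_iff_mem _ _).2 hu) (fun x hx hx' => by
        obtain ⟨c, rfl⟩ := Submodule.mem_span_singleton.1 hx
        have := hx' u (Submodule.mem_span_singleton_self u)
        rw [P.B_smul_left, mul_eq_zero, _root_.map_eq_zero] at this
        rw [this.resolve_right hu0, zero_smul])
    rw [finrank_span_singleton hu1] at a4
    exact ⟨A, a1, a2, a3, Or.inl ⟨hc, a4⟩⟩
  · push Not at hc
    have hwv : P.B w (((T - 1) ^ k) v) ≠ 0 := by
      rw [beta_symm hP hT hI hk v hw]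
      simp [P.ε_ne, hvw]
    have key : ∀ a b : F, P.B (a • v + b • w) (((T - 1) ^ k) v) = 0 →
        P.B (a • v + b • w) (((T - 1) ^ k) w) = 0 → a = 0 ∧ b = 0 := by
      intro a b h1 h2
      rw [P.B_add_left, P.B_smul_left, P.B_smul_left] at h1 h2
      rw [hc v hv] at h1
      rw [hc w hw] at h2
      simpa [hvw, hwv] using And.intro h2 h1
    obtain ⟨A, a1, a2, a3, a4⟩ := exists_block_of_nondeg hP hT hI hk (S := Submodule.span F {v, w})
      (Submodule.span_le.2 (Set.insert_subset hv (Set.singleton_subset_iff.2 hw))) (fun x hx hx' => by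
        obtain ⟨a, b, rfl⟩ := Submodule.mem_span_pair.1 hx
        obtain ⟨rfl, rfl⟩ := key a b (hx' v (Submodule.subset_span (by simp)))
          (hx' w (Submodule.subset_span (by simp)))
        simp)
    have hli : LinearIndependent F ![v, w] := LinearIndependent.pair_iff.2 fun a b hab =>
      key a b (by simp [hab]) (by simp [hab])
    have h2 := finrank_span_eq_card hli
    rw [Matrix.range_cons, Matrix.range_cons, Matrix.range_empty, Set.union_empty,
      Set.singleton_union, Fintype.card_fin] at h2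
    rw [h2] at a4
    exact ⟨A, a1, a2, a3, Or.inr ⟨hc, a4⟩⟩

theorem plus_of_replicate {c h : ℕ} (he : edOn T U = unEd (Multiset.replicate c (2 * h)))
    (hs : ∀ y ∈ U, P.Sing (((T - 1) ^ h) y)) : Plus P U := by
  have hNU : Inv (T - 1) U := fun v hv => U.sub_mem (hI v hv) hv
  have hk : ∀ v ∈ U, ((T - 1) ^ (2 * h)) v = 0 := by
    have := (aeval_eq_zero_on_iff hI ((X - 1) ^ (2 * h))).2 (by
      rw [he]
      intro x hx
      obtain ⟨a, ha, rfl⟩ := Multiset.mem_map.1 hx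
      rw [Multiset.eq_of_mem_replicate ha])
    simpa using this
  refine ⟨U.map ((T - 1) ^ h), inv_iff_map_le.1 (hNU.pow h), ?_, ?_, ?_⟩
  · have h1 := finrank_map_add ((T - 1) ^ h) U
    have h2 := hI.finrank_eq
    rw [finrank_inf_ker_pow hI he, Multiset.map_replicate, Multiset.sum_replicate,
      min_eq_right (by omega), smul_eq_mul] at h1
    rw [he, mdeg_unEd, Multiset.sum_replicate, smul_eq_mul, mul_left_comm] at h2
    omega
  · rintro _ ⟨y, hy, rfl⟩
    exact hs y hy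
  · rintro _ ⟨y, hy, rfl⟩ _ ⟨x, -, rfl⟩
    exact B_pow_pow_eq_zero hP hT hI hk (by omega) x hy

end Unip

variable [Fintype F]

theorem ND.exists_unEd (hP : P.Nondeg) {T : End F V} (hT : Isom P T) {U Y : Submodule F V}
    (hI : Inv T U) {μ : Multiset ℕ} (h : edOn T U = unEd μ) (hY : ND P Y) (hYI : Inv T Y)
    (hle : Y ≤ U) : ∃ ν ≤ μ, edOn T Y = unEd ν := by
  have := hY.edOn_le hP hT hYI hI hle
  rw [h] at this
  obtain ⟨ν, h1, h2⟩ := exists_le_map_eq _ this
  exact ⟨ν, h1, h2.symm⟩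

/-- The sizes of Jordan blocks that must occur in pairs. -/
def BadData (P : PQ σ V) (bad : ℕ → Prop) : Prop :=
  (σ ≠ RingHom.id F ∧ ∀ k, ¬ bad k) ∨
    (σ = RingHom.id F ∧ (2 : F) ≠ 0 ∧ ∀ k, bad (k + 1) ↔ P.ε * (-1) ^ k = -1)

theorem BadData.exists_block {bad : ℕ → Prop} (hb : BadData P bad) (hP : P.Nondeg) {T : End F V}
    (hT : Isom P T) {U : Submodule F V} (hU : ND P U) (hI : Inv T U) {μ : Multiset ℕ}
    (h : edOn T U = unEd μ) (h0 : U ≠ ⊥) : ∃ A, A ≤ U ∧ A ≠ ⊥ ∧ ND P A ∧ Inv T A ∧ ∃ k, k ∈ μ ∧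
      ((¬ bad k ∧ edOn T A = unEd {k}) ∨ (bad k ∧ edOn T A = unEd {k, k})) := by
  obtain ⟨k, h1, hk, ⟨v, hv, w, hw, hvw⟩, A, a1, a2, a3, a4⟩ := exists_unip_block hP hT hI hU h h0
  refine ⟨A, a1, ?_, a2, a3, k + 1, h1, ?_⟩
  · rintro rfl
    rw [edOn_bot] at a4
    rcases a4 with ⟨-, a4⟩ | ⟨-, a4⟩ <;> simp [unEd] at a4
  rcases a4 with ⟨⟨u, hu, hu0⟩, a4⟩ | ⟨hc, a4⟩
  · refine Or.inl ⟨fun hbad => ?_, a4⟩
    rcases hb with ⟨-, hb⟩ | ⟨rfl, h2, hb⟩
    · exact hb _ hbad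
    · have := beta_symm hP hT hI hk u hu
      rw [(hb k).1 hbad, RingHom.id_apply] at this
      apply hu0
      have h3 : 2 * P.B u (((T - 1) ^ k) u) = 0 := by linear_combination this
      exact (mul_eq_zero.1 h3).resolve_left h2
  · refine Or.inr ⟨?_, a4⟩
    have key : ∀ c : F, c * P.B v (((T - 1) ^ k) w) + σ c * P.B w (((T - 1) ^ k) v) = 0 := by
      intro c
      have := hc (v + c • w) (U.add_mem hv (U.smul_mem c hw))
      simp only [map_add, map_smul, LinearMap.add_apply, P.B_smul_left, hc v hv, hc w hw,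
        smul_eq_mul] at this
      linear_combination this
    rcases hb with ⟨hσ, -⟩ | ⟨rfl, h2, hb⟩
    · exfalso
      apply hσ
      ext c
      have h3 := key c
      have h4 := key 1
      rw [map_one] at h4
      have : (c - σ c) * P.B v (((T - 1) ^ k) w) = 0 := by linear_combination h3 - σ c * h4
      exact (sub_eq_zero.1 ((mul_eq_zero.1 this).resolve_right hvw)).symm
    · rw [hb]
      have h4 := key 1
      rw [beta_symm hP hT hI hk v hw] at h4
      simp only [RingHom.id_apply, one_mul] at h4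
      have : (P.ε * (-1) ^ k + 1) * P.B v (((T - 1) ^ k) w) = 0 := by linear_combination h4
      exact eq_neg_of_add_eq_zero_left ((mul_eq_zero.1 this).resolve_right hvw)

theorem BadData.main {bad : ℕ → Prop} (hb : BadData P bad) (hP : P.Nondeg) {T : End F V}
    (hT : Isom P T) {U : Submodule F V} (hU : ND P U) (hI : Inv T U) {μ : Multiset ℕ}
    (h : edOn T U = unEd μ) : (∀ a, bad a → Even (μ.count a)) ∧
      ∀ ν ≤ μ, (∀ a, bad a → Even (ν.count a)) → ∃ W, W ≤ U ∧ ND P W ∧ Inv T W ∧ edOn T W = unEd ν := by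
  refine nd_induction hP hT hU hI
    (fun A _ => ∃ k, (¬ bad k ∧ edOn T A = unEd {k}) ∨ (bad k ∧ edOn T A = unEd {k, k}))
    (fun U => ∀ μ, edOn T U = unEd μ → (∀ a, bad a → Even (μ.count a)) ∧
      ∀ ν ≤ μ, (∀ a, bad a → Even (ν.count a)) →
        ∃ W, W ≤ U ∧ ND P W ∧ Inv T W ∧ edOn T W = unEd ν) ?_ ?_ ?_ μ h
  · intro Y a1 a2 a3 a4
    obtain ⟨ν, -, b2⟩ := a2.exists_unEd hP hT hI h a3 a1
    obtain ⟨A, c1, c2, c3, c4, k, -, c5⟩ := hb.exists_block hP hT a2 a3 b2 a4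
    exact ⟨A, c1, c2, c3, c4, k, c5⟩
  · intro μ h
    rw [edOn_bot] at h
    obtain rfl : μ = 0 := unEd_injective (F := F) h.symm
    refine ⟨by simp, fun ν hν _ => ⟨⊥, le_rfl, nd_bot, inv_bot T, ?_⟩⟩
    rw [Multiset.le_zero.1 hν, edOn_bot]; rfl
  · rintro A Y a0 a1 a2 ⟨k, a3⟩ b1 b2 b3 ih μ' h'
    obtain ⟨μ₀, -, b4⟩ := b1.exists_unEd hP hT hI h b2 (le_sup_right.trans a0)
    obtain ⟨c1, c2⟩ := ih μ₀ b4
    obtain ⟨κ, d1, d2, d3⟩ : ∃ κ : Multiset ℕ, edOn T A = unEd κ ∧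
        (∀ a, bad a → Even (κ.count a)) ∧ ∀ ν ≤ κ + μ₀, (∀ a, bad a → Even (ν.count a)) →
          κ ≤ ν ∨ ν ≤ μ₀ := by
      have hno : ∀ (c : ℕ) (ν : Multiset ℕ), ν ≤ Multiset.replicate c k + μ₀ → k ∉ ν → ν ≤ μ₀ := by
        intro c ν h1 h2
        rw [Multiset.le_iff_count] at h1 ⊢
        intro a
        have := h1 a
        rw [Multiset.count_add, Multiset.count_replicate] at this
        split_ifs at this with h3
        · rw [← h3, Multiset.count_eq_zero.2 h2]; omega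
        · omega
      rcases a3 with ⟨e1, e2⟩ | ⟨e1, e2⟩
      · refine ⟨{k}, e2, fun a ha => ?_, fun ν h1 _ => ?_⟩
        · rw [Multiset.count_singleton, if_neg (fun h : a = k => e1 (h ▸ ha))]; exact Even.zero
        · by_cases h2 : k ∈ ν
          exacts [Or.inl (Multiset.singleton_le.2 h2), Or.inr (hno 1 ν h1 h2)]
      · refine ⟨Multiset.replicate 2 k, e2, fun a ha => ?_, fun ν h1 h3 => ?_⟩
        · rw [Multiset.count_replicate]; split_ifs <;> simp
        · by_cases h2 : k ∈ ν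
          · refine Or.inl (Multiset.le_count_iff_replicate_le.1 ?_)
            have := Multiset.count_pos.2 h2
            obtain ⟨c, hc⟩ := h3 k e1
            omega
          · exact Or.inr (hno 2 ν h1 h2)
    rw [a1.edOn_sup b3 a2 b2, d1, b4, ← unEd_add] at h'
    obtain rfl := unEd_injective h'
    refine ⟨fun a ha => by rw [Multiset.count_add]; exact (d2 a ha).add (c1 a ha), fun ν h1 h2 => ?_⟩
    rcases d3 ν h1 h2 with h3 | h3
    · obtain ⟨ν', rfl⟩ := Multiset.le_iff_exists_add.1 h3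
      obtain ⟨W, e1, e2, e3, e4⟩ := c2 ν' (le_of_add_le_add_left h1) fun a ha => by
        have := h2 a ha
        rw [Multiset.count_add] at this
        exact (Nat.even_add.1 this).1 (d2 a ha)
      exact ⟨A ⊔ W, sup_le_sup_left e1 _, a1.sup e2 (e1.trans b3), a2.sup e3, by
        rw [a1.edOn_sup (e1.trans b3) a2 e3, d1, e4, unEd_add]⟩
    · obtain ⟨W, e1, e2⟩ := c2 ν h3 h2
      exact ⟨W, e1.trans le_sup_right, e2⟩

theorem plus_of_forall_even (h2 : (2 : F) ≠ 0) (hP : P.Nondeg) {T : End F V}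
    (hT : Isom P T) {U : Submodule F V} (hU : ND P U) (hI : Inv T U) {μ : Multiset ℕ}
    (h : edOn T U = unEd μ) (he : ∀ a ∈ μ, Even a) : Plus P U := by
  refine nd_induction hP hT hU hI (fun A _ => Plus P A) (Plus P) ?_ plus_bot ?_
  · intro Y a1 a2 a3 a4
    obtain ⟨ν, b1, b2⟩ := a2.exists_unEd hP hT hI h a3 a1
    obtain ⟨k, c1, -, -, A, c2, c3, c4, c5⟩ := exists_unip_block hP hT a3 a2 b2 a4
    obtain ⟨l, hl⟩ := he _ (Multiset.mem_of_le b1 c1)
    obtain ⟨c, hc, c6⟩ : ∃ c, c ≠ 0 ∧ edOn T A = unEd (Multiset.replicate c (2 * l)) := by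
      rw [two_mul, ← hl]
      rcases c5 with ⟨-, c5⟩ | ⟨-, c5⟩
      exacts [⟨1, one_ne_zero, c5⟩, ⟨2, two_ne_zero, c5⟩]
    refine ⟨A, c2, ?_, c3, c4, plus_of_replicate hP hT c4 c6 fun y hy => sing_of_two h2 ?_⟩
    · rintro rfl
      rw [edOn_bot] at c6
      exact replicate_ne_zero hc _ (unEd_injective (F := F) c6.symm)
    · refine B_pow_pow_eq_zero hP hT c4 (k := 2 * l) ?_ (by omega) y hy
      have := (aeval_eq_zero_on_iff c4 ((X - 1) ^ (2 * l))).2 (by
        rw [c6]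
        intro x hx
        obtain ⟨a, ha, rfl⟩ := Multiset.mem_map.1 hx
        rw [Multiset.eq_of_mem_replicate ha])
      simpa using this
  · intro A Y _ a1 _ a3 _ _ b3 b4
    exact a3.sup b4 (a1.disjoint b3) b3

/-- Elusivity of elements of order `p` on nondegenerate subspaces. -/
theorem BadData.forall_iff {bad : ℕ → Prop} (hb : BadData P bad) (hP : P.Nondeg) {p : ℕ}
    [Fact p.Prime] [CharP F p] (m : ℕ)
    (hex : ∀ μ : Multiset ℕ, (∀ a ∈ μ, 0 < a ∧ a ≤ p) → (∀ a, bad a → Even (μ.count a)) →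
      μ.sum = finrank F V → ∃ T, Isom P T ∧ ed T = unEd μ)
    (h1 : ∃ W : Submodule F V, finrank F W = m ∧ ND P W) :
    (∀ T, Isom P T → T ^ p = 1 → T ≠ 1 → ∃ W : Submodule F V, (finrank F W = m ∧ ND P W) ∧ Inv T W) ↔
      ∀ μ : Multiset ℕ, (∀ a ∈ μ, 0 < a ∧ a ≤ p) → (∀ a, bad a → Even (μ.count a)) →
        μ.sum = finrank F V → ∃ ν ≤ μ, ν.sum = m ∧ ∀ a, bad a → Even (ν.count a) := by
  constructor
  · intro H μ a1 a2 a3
    obtain ⟨T, hT, hed⟩ := hex μ a1 a2 a3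
    have hTp : T ^ p = 1 := pow_eq_one_iff_ed.2 (hed ▸ dvd_of_mem_unEd fun a ha => (a1 a ha).2)
    obtain ⟨W, ⟨b1, b2⟩, b3⟩ : ∃ W : Submodule F V, (finrank F W = m ∧ ND P W) ∧ Inv T W := by
      by_cases h : T = 1
      · obtain ⟨W, hW⟩ := h1
        exact ⟨W, hW, fun v hv => by rw [h]; exact hv⟩
      · exact H T hT hTp h
    obtain ⟨ν, c1, c2⟩ := b2.exists_unEd hP hT (inv_top T) ((edOn_top T).trans hed) b3 le_top
    exact ⟨ν, c1, by rw [← b1, b3.finrank_eq, c2, mdeg_unEd], (hb.main hP hT b2 b3 c2).1⟩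
  · intro H T hT hTp _
    obtain ⟨μ, a1, a2⟩ := ed_unEd hTp
    obtain ⟨b1, b2⟩ := hb.main hP hT (nd_top hP) (inv_top T) ((edOn_top T).trans a2)
    obtain ⟨ν, c1, c2, c3⟩ := H μ a1 b1 (by rw [finrank_eq_mdeg_ed T, a2, mdeg_unEd])
    obtain ⟨W, -, d1, d2, d3⟩ := b2 ν c1 c3
    exact ⟨W, ⟨by rw [d2.finrank_eq, d3, mdeg_unEd, c2], d1⟩, d2⟩

end CfsgLib.Elusive
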